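import Cfsg.Agent.Lib.RootSub.RootSet

/-!
# The commutator case: lines `AC`
-/

set_option autoImplicit false

open Cfsg CfsgLib.RankOne

namespace CfsgLib.RootSet

variable {G : Type*} [Group G]

theorem commutator_normalized {A B : Subgroup G} {x : G} (hx : x ∈ A ⊔ B) :
    conjBy ⁅A, B⁆ x = ⁅A, B⁆ := by
  -- the set of elements normalising `⁅A, B⁆`
  have hle : A ⊔ B ≤ Subgroup.normalizer ((⁅A, B⁆ : Subgroup G) : Set G) := by
    have hgen : ∀ y : G, (∀ a ∈ A, ∀ b ∈ B, y * (a * b * a⁻¹ * b⁻¹) * y⁻¹ ∈ ⁅A, B⁆) →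
        conjBy ⁅A, B⁆ y ≤ ⁅A, B⁆ := by
      intro y hy
      rw [conjBy, Subgroup.commutator_def, MonoidHom.map_closure, Subgroup.closure_le]
      rintro _ ⟨_, ⟨a, ha, b, hb, rfl⟩, rfl⟩
      exact hy a ha b hb
    have hA : ∀ a₀ ∈ A, ∀ a ∈ A, ∀ b ∈ B, a₀ * (a * b * a⁻¹ * b⁻¹) * a₀⁻¹ ∈ ⁅A, B⁆ := by
      intro a₀ ha₀ a ha b hb
      have h1 : (a₀ * a) * b * (a₀ * a)⁻¹ * b⁻¹ ∈ ⁅A, B⁆ :=
        Subgroup.commutator_mem_commutator (A.mul_mem ha₀ ha) hb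
      have h2 : a₀ * b * a₀⁻¹ * b⁻¹ ∈ ⁅A, B⁆ := Subgroup.commutator_mem_commutator ha₀ hb
      have e : a₀ * (a * b * a⁻¹ * b⁻¹) * a₀⁻¹ = ((a₀ * a) * b * (a₀ * a)⁻¹ * b⁻¹) * (a₀ * b * a₀⁻¹ * b⁻¹)⁻¹ := by
        group
      rw [e]
      exact Subgroup.mul_mem _ h1 (Subgroup.inv_mem _ h2)
    have hB : ∀ b₀ ∈ B, ∀ a ∈ A, ∀ b ∈ B, b₀ * (a * b * a⁻¹ * b⁻¹) * b₀⁻¹ ∈ ⁅A, B⁆ := by
      intro b₀ hb₀ a ha b hb
      have h1 : a * (b₀ * b) * a⁻¹ * (b₀ * b)⁻¹ ∈ ⁅A, B⁆ :=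
        Subgroup.commutator_mem_commutator ha (B.mul_mem hb₀ hb)
      have h2 : a * b₀ * a⁻¹ * b₀⁻¹ ∈ ⁅A, B⁆ := Subgroup.commutator_mem_commutator ha hb₀
      have e : b₀ * (a * b * a⁻¹ * b⁻¹) * b₀⁻¹ = (a * b₀ * a⁻¹ * b₀⁻¹)⁻¹ * (a * (b₀ * b) * a⁻¹ * (b₀ * b)⁻¹) := by
        group
      rw [e]
      exact Subgroup.mul_mem _ (Subgroup.inv_mem _ h2) h1
    have hnorm : ∀ y : G, conjBy ⁅A, B⁆ y ≤ ⁅A, B⁆ → conjBy ⁅A, B⁆ y⁻¹ ≤ ⁅A, B⁆ →
        y ∈ Subgroup.normalizer ((⁅A, B⁆ : Subgroup G) : Set G) := by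
      intro y h1 h2
      apply conjBy_eq_self_iff.1
      apply le_antisymm h1
      intro z hz
      have h3 : y⁻¹ * z * y⁻¹⁻¹ ∈ conjBy ⁅A, B⁆ y⁻¹ := conj_mem_conjBy y⁻¹ hz
      have h4 := h2 h3
      rw [mem_conjBy]
      simpa using h4
    apply sup_le
    · intro a ha
      exact hnorm a (hgen a (hA a ha)) (hgen a⁻¹ (hA a⁻¹ (A.inv_mem ha)))
    · intro b hb
      exact hnorm b (hgen b (hB b hb)) (hgen b⁻¹ (hB b⁻¹ (B.inv_mem hb)))
  exact conjBy_eq_self_iff.2 (hle hx)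

/-- `⁅A, B⁆` of a rank one pair never belongs to `S`. -/
theorem not_rankOne_of_commutator_mem {S : Set (Subgroup G)} (hS : IsRootSubgroupSet S) {A B : Subgroup G}
    (hA : A ∈ S) (hp : IsRankOnePair A B) (hC : ⁅A, B⁆ ∈ S) : False := by
  set C := ⁅A, B⁆ with hCdef
  have hCnorm : ∀ x ∈ A ⊔ B, conjBy C x = C := fun x hx => commutator_normalized hx
  have hCle : C ≤ A ⊔ B := by
    rw [hCdef, Subgroup.commutator_le]
    intro a ha b hb
    have ha' : a ∈ A ⊔ B := (le_sup_left : A ≤ A ⊔ B) ha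
    have hb' : b ∈ A ⊔ B := (le_sup_right : B ≤ A ⊔ B) hb
    exact Subgroup.mul_mem _ (Subgroup.mul_mem _ (Subgroup.mul_mem _ ha' hb') (Subgroup.inv_mem _ ha'))
      (Subgroup.inv_mem _ hb')
  have hCconj : ∀ x ∈ A ⊔ B, ∀ n ∈ C, x * n * x⁻¹ ∈ C := by
    intro x hx n hn
    have := conj_mem_conjBy x hn
    rwa [hCnorm x hx] at this
  obtain ⟨a, ha, ha1⟩ := exists_ne_one_left hp
  obtain ⟨b, hb, hb1⟩ := exists_ne_one_right hp
  -- if `C` centralises `⟨A, B⟩`, contradiction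
  have hnotcentral : ¬ ∀ n ∈ C, n ∈ Subgroup.centralizer ((A ⊔ B : Subgroup G) : Set G) := by
    intro hcen
    have hmem : a * b * a⁻¹ * b⁻¹ ∈ C := Subgroup.commutator_mem_commutator ha hb
    have hn : conjBy B (a * b * a⁻¹) = B := by
      have e : a * b * a⁻¹ = (a * b * a⁻¹ * b⁻¹) * b := by group
      rw [e, ← conjBy_conjBy, conjBy_of_mem hb]
      apply conjBy_of_mem_centralizer
      rw [Subgroup.mem_centralizer_iff]
      intro y hy
      exact Subgroup.mem_centralizer_iff.1 (hcen _ hmem) y ((le_sup_right : B ≤ A ⊔ B) hy)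
    exact hb1 (eq_one_of_conj_normalizes hp ha ha1 hb hn)
  obtain ⟨m, hm, hmove⟩ : ∃ m ∈ C, conjBy A m = B := by
    rcases exists_move_or_central hp hCle hCconj with h | h
    · exact h
    · exact absurd h hnotcentral
  rcases hS.pair A hA C hC with h1 | h1 | h1
  · -- `A` commutes with `C`
    apply hp.ne
    rw [← hmove]
    exact (conjBy_eq_of_commute fun y hy => (commute_of_commutator_eq_bot h1 hy hm).symm).symm
  · -- rank one with a normal subgroup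
    obtain ⟨c, hc, _, e⟩ := h1.cond_left a ha ha1
    rw [hCnorm a⁻¹ (Subgroup.inv_mem _ ((le_sup_left : A ≤ A ⊔ B) ha))] at e
    apply h1.ne
    have h2 := congrArg (fun D => conjBy D c) e
    simp only [conjBy_conjBy, mul_inv_cancel, conjBy_one] at h2
    rw [h2, conjBy_of_mem hc]
  · -- commutator case
    have hCcomm := hS.commutative C hC
    have hcomm : ∀ x ∈ C, ∀ y ∈ C, x * y = y * x := fun x hx y hy =>
      setLike_mul_comm hx hy
    have key : ∀ c ∈ C, conjBy (conjBy A c) a = conjBy A c := by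
      intro c hc
      set z := a * c * a⁻¹ * c⁻¹ with hz
      have hzD : z ∈ ⁅A, C⁆ := Subgroup.commutator_mem_commutator ha hc
      have hzC : z ∈ C := by
        rw [hz]
        exact C.mul_mem (hCconj a ((le_sup_left : A ≤ A ⊔ B) ha) c hc) (C.inv_mem hc)
      have hzA : z * a = a * z := h1.2.1 z hzD a ((le_sup_left : A ≤ A ⊔ C) ha)
      have hzfixA : conjBy A z = A := by
        by_contra hne
        have hΩ : conjBy A z ∈ unipotentSubgroups A B := by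
          refine unipotent_invariant (left_mem_unipotent hp) (hCle hzC)
        have hfix : conjBy (conjBy A z) a = conjBy A z := by
          rw [conjBy_conjBy, ← hzA, ← conjBy_conjBy, conjBy_of_mem ha]
        exact ha1 (eq_one_of_fix hp hΩ hne ha hfix)
      have e1 : a * c = z * c * a := by rw [hz]; group
      rw [conjBy_conjBy, e1, ← conjBy_conjBy, conjBy_of_mem ha]
      -- `z` commutes with `c`
      rw [hcomm z hzC c hc, ← conjBy_conjBy, hzfixA]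
    have h2 := key m hm
    rw [hmove] at h2
    exact ha1 (eq_one_of_conjBy_eq hp ha h2)

/-- The data of a line: a member with a partner and the commutator case. -/
theorem commutatorCase_of_mem {S : Set (Subgroup G)} (hS : IsRootSubgroupSet S) {A B : Subgroup G}
    (hA : A ∈ S) (hB : B ∈ S) (hC : ⁅A, B⁆ ∈ S) : RootCommutatorCase S A B := by
  rcases hS.pair A hA B hB with h1 | h1 | h1
  · exact absurd h1 (hS.ne_bot _ hC)
  · exact (not_rankOne_of_commutator_mem hS hA h1 hC).elim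
  · exact h1

section line

variable {S : Set (Subgroup G)} (hS : IsRootSubgroupSet S) {A B F : Subgroup G}

include hS

theorem ne_commutator (hA : A ∈ S) (hB : B ∈ S) (hC : ⁅A, B⁆ ∈ S) : A ≠ ⁅A, B⁆ := by
  intro e
  obtain ⟨_, hcen, _, _⟩ := commutatorCase_of_mem hS hA hB hC
  apply hS.ne_bot _ hC
  apply commutator_eq_bot_of_commute
  intro a ha b hb
  have ha' : a ∈ ⁅A, B⁆ := by rw [← e]; exact ha
  exact hcen a ha' b ((le_sup_right : B ≤ A ⊔ B) hb)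

/-- Injectivity of the commutator maps. -/
theorem eq_one_of_commutator_eq_one (hA : A ∈ S) (hB : B ∈ S) (hC : ⁅A, B⁆ ∈ S)
    (hF : F ∈ S) (hAF : IsRankOnePair A F) {a b : G} (ha : a ∈ A) (ha1 : a ≠ 1) (hb : b ∈ B)
    (h : a * b * a⁻¹ * b⁻¹ = 1) : b = 1 := by
  by_contra hb1
  obtain ⟨_, hcen, _, h4⟩ := commutatorCase_of_mem hS hA hB hC
  -- `a` commutes with `b`
  have hab : b * a * b⁻¹ = a := by
    have : a * b = b * a := by
      have e : a * b = (a * b * a⁻¹ * b⁻¹) * (b * a) := by group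
      rw [e, h, one_mul]
    rw [← this]
    group
  have hpb : IsRankOnePair (conjBy A b) (conjBy F b) := IsRankOnePair_conjBy hAF b
  have hmem : a ∈ A ⊓ conjBy A b := by
    refine ⟨ha, ?_⟩
    have := conj_mem_conjBy b ha
    rwa [hab] at this
  have hAb : A = conjBy A b := by
    rcases inf_eq_bot_or_eq hS hF hAF (hS.conj_mem A hA b) with h1 | h1
    · rw [h1] at hmem
      exact absurd hmem ha1
    · exact h1
  -- so `[A, b] ≤ A ∩ C = 1`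
  have hinf : A ⊓ ⁅A, B⁆ = ⊥ := by
    rcases inf_eq_bot_or_eq hS hF hAF hC with h1 | h1
    · exact h1
    · exact absurd h1 (ne_commutator hS hA hB hC)
  apply hS.ne_bot _ hC
  rw [← h4 b hb hb1, eq_bot_iff, Subgroup.closure_le]
  rintro _ ⟨a', ha', rfl⟩
  have h1 : a' * b * a'⁻¹ * b⁻¹ ∈ ⁅A, B⁆ := Subgroup.commutator_mem_commutator ha' hb
  have h2 : a' * b * a'⁻¹ * b⁻¹ ∈ A := by
    have h3 : b * a'⁻¹ * b⁻¹ ∈ A := by
      have := conj_mem_conjBy b (A.inv_mem ha')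
      rwa [← hAb] at this
    have e : a' * b * a'⁻¹ * b⁻¹ = a' * (b * a'⁻¹ * b⁻¹) := by group
    rw [e]
    exact A.mul_mem ha' h3
  have : a' * b * a'⁻¹ * b⁻¹ ∈ A ⊓ ⁅A, B⁆ := ⟨h2, h1⟩
  rw [hinf] at this
  exact this

/-- The commutator with fixed `a ∈ A#` is surjective: every `c ∈ C` is `[a, b]`. -/
theorem exists_commutator_eq (hA : A ∈ S) (hB : B ∈ S) (hC : ⁅A, B⁆ ∈ S) {a : G} (ha : a ∈ A) (ha1 : a ≠ 1)
    {c : G} (hc : c ∈ ⁅A, B⁆) : ∃ b ∈ B, a * b * a⁻¹ * b⁻¹ = c := by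
  obtain ⟨_, hcen, h3, _⟩ := commutatorCase_of_mem hS hA hB hC
  rw [← h3 a ha ha1] at hc
  have hcentral : ∀ b ∈ B, a * b * a⁻¹ * b⁻¹ ∈ ⁅A, B⁆ := fun b hb =>
    Subgroup.commutator_mem_commutator ha hb
  have hcen' : ∀ b ∈ B, ∀ y ∈ A ⊔ B, (a * b * a⁻¹ * b⁻¹) * y = y * (a * b * a⁻¹ * b⁻¹) :=
    fun b hb y hy => hcen _ (hcentral b hb) y hy
  have hmul : ∀ b₁ ∈ B, ∀ b₂ ∈ B, a * (b₁ * b₂) * a⁻¹ * (b₁ * b₂)⁻¹ =
      (a * b₁ * a⁻¹ * b₁⁻¹) * (a * b₂ * a⁻¹ * b₂⁻¹) := by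
    intro b₁ hb₁ b₂ hb₂
    have h1 := hcen' b₂ hb₂ b₁⁻¹ (Subgroup.inv_mem _ ((le_sup_right : B ≤ A ⊔ B) hb₁))
    have e : a * (b₁ * b₂) * a⁻¹ * (b₁ * b₂)⁻¹ =
        (a * b₁ * a⁻¹) * ((a * b₂ * a⁻¹ * b₂⁻¹) * b₁⁻¹) := by group
    rw [e, h1]
    group
  -- the image is a subgroup
  induction hc using Subgroup.closure_induction with
  | mem x hx =>
    obtain ⟨b, hb, rfl⟩ := hx
    exact ⟨b, hb, rfl⟩
  | one => exact ⟨1, B.one_mem, by group⟩
  | mul x y _ _ hx hy =>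
    obtain ⟨b₁, hb₁, rfl⟩ := hx
    obtain ⟨b₂, hb₂, rfl⟩ := hy
    exact ⟨b₁ * b₂, B.mul_mem hb₁ hb₂, hmul b₁ hb₁ b₂ hb₂⟩
  | inv x _ hx =>
    obtain ⟨b, hb, rfl⟩ := hx
    refine ⟨b⁻¹, B.inv_mem hb, ?_⟩
    have h1 := hmul b hb b⁻¹ (B.inv_mem hb)
    have h2 : (a * b * a⁻¹ * b⁻¹) * (a * b⁻¹ * a⁻¹ * b⁻¹⁻¹) = 1 := by
      rw [← h1]
      group
    exact eq_inv_of_mul_eq_one_right h2

/-- The element `b a b⁻¹` as `c a` for `c` in the commutator. -/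
theorem conj_eq_mul (b a : G) : b * a * b⁻¹ = (b * a * b⁻¹ * a⁻¹) * a := by group

/-- `A^b` lies in `A ⊔ C`. -/
theorem conjBy_le_sup {b : G} (hb : b ∈ B) : conjBy A b ≤ A ⊔ ⁅A, B⁆ := by
  intro x hx
  have h1 := mem_conjBy.1 hx
  set a := b⁻¹ * x * b with ha
  have e : x = (a * b * a⁻¹ * b⁻¹)⁻¹ * a := by rw [ha]; group
  rw [e]
  exact Subgroup.mul_mem _ ((le_sup_right : ⁅A, B⁆ ≤ _) (Subgroup.inv_mem _
    (Subgroup.commutator_mem_commutator h1 hb))) ((le_sup_left : A ≤ _) h1)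

/-- Every element of `A ⊔ C` lies in `C` or in a conjugate `A^b`. -/
theorem mem_line (hA : A ∈ S) (hB : B ∈ S) (hC : ⁅A, B⁆ ∈ S) {x : G} (hx : x ∈ A ⊔ ⁅A, B⁆) :
    x ∈ ⁅A, B⁆ ∨ ∃ b ∈ B, x ∈ conjBy A b := by
  obtain ⟨_, hcen, _, _⟩ := commutatorCase_of_mem hS hA hB hC
  have hcomm : ∀ c ∈ ⁅A, B⁆, ∀ a ∈ A, c * a = a * c := fun c hc a ha =>
    hcen c hc a ((le_sup_left : A ≤ A ⊔ B) ha)
  have hnorm : A ≤ Subgroup.normalizer ((⁅A, B⁆ : Subgroup G) : Set G) := by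
    intro a ha
    apply conjBy_eq_self_iff.1
    apply conjBy_eq_of_commute
    intro c hc
    exact (hcomm c hc a ha).symm
  have hx' : x ∈ ((A ⊔ ⁅A, B⁆ : Subgroup G) : Set G) := hx
  rw [Subgroup.coe_mul_of_left_le_normalizer_right _ _ hnorm] at hx'
  obtain ⟨a, ha, c, hc, rfl⟩ := Set.mem_mul.1 hx'
  by_cases ha1 : a = 1
  · left
    rw [ha1, one_mul]
    exact hc
  · right
    obtain ⟨b, hb, e⟩ := exists_commutator_eq hS hA hB hC ha ha1 (Subgroup.inv_mem _ hc)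
    refine ⟨b, hb, ?_⟩
    have h1 : a * c = b * a * b⁻¹ := by
      have h2 : c = b * a * b⁻¹ * a⁻¹ := by
        have : c = (a * b * a⁻¹ * b⁻¹)⁻¹ := by rw [e]; group
        rw [this]
        group
      rw [← hcomm c hc a ha]
      rw [h2]
      group
    rw [h1]
    exact conj_mem_conjBy b ha

/-- The commutator with fixed first entry is multiplicative (commutator case). -/
theorem commutator_mul (hA : A ∈ S) (hB : B ∈ S) (hC : ⁅A, B⁆ ∈ S) {a b₁ b₂ : G} (ha : a ∈ A)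
    (hb₁ : b₁ ∈ B) (hb₂ : b₂ ∈ B) : a * (b₁ * b₂) * a⁻¹ * (b₁ * b₂)⁻¹ =
      (a * b₁ * a⁻¹ * b₁⁻¹) * (a * b₂ * a⁻¹ * b₂⁻¹) := by
  obtain ⟨_, hcen, _, _⟩ := commutatorCase_of_mem hS hA hB hC
  have h1 : (a * b₂ * a⁻¹ * b₂⁻¹) * b₁⁻¹ = b₁⁻¹ * (a * b₂ * a⁻¹ * b₂⁻¹) :=
    hcen (a * b₂ * a⁻¹ * b₂⁻¹) (Subgroup.commutator_mem_commutator ha hb₂) b₁⁻¹
    (Subgroup.inv_mem _ ((le_sup_right : B ≤ A ⊔ B) hb₁))
  have e : a * (b₁ * b₂) * a⁻¹ * (b₁ * b₂)⁻¹ =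
      (a * b₁ * a⁻¹) * ((a * b₂ * a⁻¹ * b₂⁻¹) * b₁⁻¹) := by group
  rw [e, h1]
  group

/-- The key point: a member of `S` inside `C = ⁅A, B⁆` equals `C`. -/
theorem eq_of_le_commutator (hA : A ∈ S) (hB : B ∈ S) (hC : ⁅A, B⁆ ∈ S) (hF : F ∈ S) (hAF : IsRankOnePair A F)
    {E : Subgroup G} (hE : E ∈ S) (hle : E ≤ ⁅A, B⁆) : E = ⁅A, B⁆ := by
  have hFA := RankOnePair_symm hAF
  obtain ⟨⟨e, he⟩, he1⟩ := Subgroup.ne_bot_iff_exists_ne_one.1 (hS.ne_bot E hE)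
  have he1' : e ≠ 1 := by simpa using he1
  obtain ⟨_, hcen, _, _⟩ := commutatorCase_of_mem hS hA hB hC
  rcases hS.pair F hF E hE with h1 | h1 | h1
  · -- `e` centralises `⟨A, F⟩`
    exfalso
    obtain ⟨a, ha, ha1⟩ := exists_ne_one_left hAF
    have hcentral : e ∈ Subgroup.centralizer ((A ⊔ F : Subgroup G) : Set G) := by
      have hsup : A ⊔ F ≤ Subgroup.centralizer ({e} : Set G) := by
        apply sup_le
        · intro y hy
          rw [Subgroup.mem_centralizer_iff]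
          intro z hz
          rw [show z = e from hz]
          exact hcen e (hle he) y ((le_sup_left : A ≤ A ⊔ B) hy)
        · intro y hy
          rw [Subgroup.mem_centralizer_iff]
          intro z hz
          rw [show z = e from hz]
          exact (commute_of_commutator_eq_bot h1 hy he).symm
      rw [Subgroup.mem_centralizer_iff]
      intro y hy
      exact (Subgroup.mem_centralizer_iff.1 (hsup hy) e rfl).symm
    apply central_mul_not_root hS hF hAF hcentral he1' ha ha1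
    obtain ⟨b, hb, e2⟩ := exists_commutator_eq hS hA hB hC ha ha1 (Subgroup.inv_mem _ (hle he))
    refine ⟨?_, conjBy A b, hS.conj_mem A hA b, ?_⟩
    · intro h0
      apply ha1
      have h2 : e = a⁻¹ := eq_inv_of_mul_eq_one_left h0
      have h3 := hcen e (hle he) a ((le_sup_left : A ≤ A ⊔ B) ha)
      -- `a⁻¹ ∈ C` and `a ∈ A` force `a = 1`
      have h4 : a ∈ A ⊓ ⁅A, B⁆ := ⟨ha, by
        have := Subgroup.inv_mem _ (hle he)
        rwa [h2, inv_inv] at this⟩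
      rcases inf_eq_bot_or_eq hS hF hAF hC with h5 | h5
      · rw [h5] at h4
        exact h4
      · exact absurd h5 (ne_commutator hS hA hB hC)
    · have h2 : e * a = b * a * b⁻¹ := by
        have h3 : e = b * a * b⁻¹ * a⁻¹ := by
          have : e = (a * b * a⁻¹ * b⁻¹)⁻¹ := by rw [e2]; group
          rw [this]
          group
        rw [h3]
        group
      rw [h2]
      exact conj_mem_conjBy b ha
  · rcases inf_eq_bot_or_eq hS hF (RankOnePair_symm h1) hC with h2 | h2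
    · exfalso
      apply hS.ne_bot E hE
      rw [eq_bot_iff, ← h2]
      exact le_inf le_rfl hle
    · exact h2
  · obtain ⟨hG2, _, _, h24⟩ := h1
    rcases hS.pair F hF _ hC with h3 | h3 | h3
    · exfalso
      apply hS.ne_bot _ hG2
      apply commutator_eq_bot_of_commute
      intro f hf y hy
      exact commute_of_commutator_eq_bot h3 hf (hle hy)
    · rcases inf_eq_bot_or_eq hS hF (RankOnePair_symm h3) hE with h2 | h2
      · exfalso
        apply hS.ne_bot E hE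
        rw [eq_bot_iff, ← h2]
        exact le_inf hle le_rfl
      · exact h2.symm
    · obtain ⟨hG1, _, _, h14⟩ := h3
      have hG : ⁅F, E⁆ = ⁅F, ⁅A, B⁆⁆ := by
        rw [← h24 e he he1', ← h14 e (hle he) he1']
      apply le_antisymm hle
      intro c hc
      obtain ⟨f, hf, hf1⟩ := exists_ne_one_right hAF
      have h5 : f * c * f⁻¹ * c⁻¹ ∈ ⁅F, E⁆ := by
        rw [hG]
        exact Subgroup.commutator_mem_commutator hf hc
      obtain ⟨e', he', e3⟩ := exists_commutator_eq hS hF hE hG2 hf hf1 h5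
      have h6 : c * e'⁻¹ = 1 := by
        apply eq_one_of_commutator_eq_one hS hF hC hG1 hA hFA hf hf1
          (Subgroup.mul_mem _ hc (Subgroup.inv_mem _ (hle he')))
        have h7 := commutator_mul hS hF hC hG1 hf hc (Subgroup.inv_mem _ (hle he'))
        have h9 := commutator_mul hS hF hE hG2 hf he' (E.inv_mem he')
        have h10 : (f * e' * f⁻¹ * e'⁻¹) * (f * e'⁻¹ * f⁻¹ * e'⁻¹⁻¹) = 1 := by
          rw [← h9]
          group
        rw [h7, ← e3]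
        exact h10
      have h8 : c = e' := by
        have : c = (c * e'⁻¹) * e' := by group
        rw [this, h6, one_mul]
      rw [h8]
      exact he'

/-- The members of `S` contained in `A ⊔ C`. -/
theorem members_line (hA : A ∈ S) (hB : B ∈ S) (hC : ⁅A, B⁆ ∈ S) (hF : F ∈ S) (hAF : IsRankOnePair A F)
    {E : Subgroup G} (hE : E ∈ S) (hle : E ≤ A ⊔ ⁅A, B⁆) : E = ⁅A, B⁆ ∨ ∃ b ∈ B, E = conjBy A b := by
  by_cases hEC : E ≤ ⁅A, B⁆
  · exact Or.inl (eq_of_le_commutator hS hA hB hC hF hAF hE hEC)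
  · right
    obtain ⟨x, hx, hxC⟩ := Set.not_subset.1 hEC
    rcases mem_line hS hA hB hC (hle hx) with h1 | ⟨b, hb, h1⟩
    · exact absurd h1 hxC
    · refine ⟨b, hb, ?_⟩
      have hx1 : x ≠ 1 := by
        rintro rfl
        exact hxC (Subgroup.one_mem _)
      rcases inf_eq_bot_or_eq hS (hS.conj_mem F hF b) (IsRankOnePair_conjBy hAF b) hE with h2 | h2
      · have : x ∈ conjBy A b ⊓ E := ⟨h1, hx⟩
        rw [h2] at this
        exact absurd this hx1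
      · exact h2.symm

theorem partition_line (hA : A ∈ S) (hB : B ∈ S) (hC : ⁅A, B⁆ ∈ S) (hF : F ∈ S) (hAF : IsRankOnePair A F) :
    IsSubgroupPartition (A ⊔ ⁅A, B⁆) (membersIn S (A ⊔ ⁅A, B⁆)) := by
  have hCmem : ⁅A, B⁆ ∈ membersIn S (A ⊔ ⁅A, B⁆) := ⟨hC, le_sup_right⟩
  have hbmem : ∀ b ∈ B, conjBy A b ∈ membersIn S (A ⊔ ⁅A, B⁆) := fun b hb =>
    ⟨hS.conj_mem A hA b, conjBy_le_sup hS hb⟩
  refine ⟨fun D hD => hD.2, ?_, ?_⟩
  · intro x hx _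
    rcases mem_line hS hA hB hC hx with h1 | ⟨b, hb, h1⟩
    · exact ⟨_, hCmem, h1⟩
    · exact ⟨_, hbmem b hb, h1⟩
  · -- a member `A^b` meets the other members trivially
    have key : ∀ b ∈ B, ∀ D ∈ membersIn S (A ⊔ ⁅A, B⁆), conjBy A b ≠ D → conjBy A b ⊓ D = ⊥ := by
      intro b _ D hD hne
      rcases inf_eq_bot_or_eq hS (hS.conj_mem F hF b) (IsRankOnePair_conjBy hAF b) hD.1 with h2 | h2
      · exact h2
      · exact absurd h2 hne
    intro D₁ hD₁ D₂ hD₂ hne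
    rcases members_line hS hA hB hC hF hAF hD₁.1 hD₁.2 with h1 | ⟨b, hb, h1⟩
    · rcases members_line hS hA hB hC hF hAF hD₂.1 hD₂.2 with h2 | ⟨b', hb', h2⟩
      · exact absurd (h1.trans h2.symm) hne
      · rw [h2, inf_comm]
        rw [h2] at hne
        exact key b' hb' D₁ hD₁ hne.symm
    · rw [h1]
      rw [h1] at hne
      exact key b hb D₂ hD₂ hne

theorem members_line_eq (hA : A ∈ S) (hB : B ∈ S) (hC : ⁅A, B⁆ ∈ S) (hF : F ∈ S) (hAF : IsRankOnePair A F) :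
    membersIn S (A ⊔ ⁅A, B⁆) = (fun b : G => conjBy A b) '' (B : Set G) ∪ {⁅A, B⁆} := by
  ext E
  constructor
  · rintro ⟨hE, hle⟩
    rcases members_line hS hA hB hC hF hAF hE hle with h1 | ⟨b, hb, h1⟩
    · exact Or.inr h1
    · exact Or.inl ⟨b, hb, h1.symm⟩
  · rintro (⟨b, hb, rfl⟩ | h1)
    · exact ⟨hS.conj_mem A hA b, conjBy_le_sup hS hb⟩
    · rw [show E = ⁅A, B⁆ from h1]
      exact ⟨hC, le_sup_right⟩

/-- `b ↦ a⁻¹ b⁻¹ a b` is an isomorphism from `B` onto `C`. -/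
theorem exists_equiv_commutator (hA : A ∈ S) (hB : B ∈ S) (hC : ⁅A, B⁆ ∈ S) (hF : F ∈ S) (hAF : IsRankOnePair A F)
    {a : G} (ha : a ∈ A) (ha1 : a ≠ 1) :
    ∃ φ : ↥B ≃* ↥⁅A, B⁆, ∀ b : ↥B, (φ b : G) = a⁻¹ * (b : G)⁻¹ * a * b := by
  have hx : a⁻¹ ∈ A := A.inv_mem ha
  have hx1 : a⁻¹ ≠ 1 := inv_ne_one.2 ha1
  have hmem : ∀ b ∈ B, a⁻¹ * b⁻¹ * a * b ∈ ⁅A, B⁆ := by
    intro b hb
    have h1 : a⁻¹ * b⁻¹ * a⁻¹⁻¹ * b⁻¹⁻¹ ∈ ⁅A, B⁆ := Subgroup.commutator_mem_commutator hx (B.inv_mem hb)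
    simpa using h1
  have hcommC : ∀ x ∈ ⁅A, B⁆, ∀ y ∈ ⁅A, B⁆, x * y = y * x := by
    have := hS.commutative _ hC
    exact fun x hx y hy => setLike_mul_comm hx hy
  have hrw : ∀ b : G, a⁻¹ * b⁻¹ * a * b = a⁻¹ * b⁻¹ * a⁻¹⁻¹ * b⁻¹⁻¹ := by
    intro b
    simp
  let f : ↥B →* ↥⁅A, B⁆ := MonoidHom.mk' (fun b => ⟨a⁻¹ * (b : G)⁻¹ * a * b, hmem b b.2⟩) (by
    intro b₁ b₂
    apply Subtype.ext
    show a⁻¹ * ((b₁ : G) * b₂)⁻¹ * a * (b₁ * b₂) = (a⁻¹ * (b₁ : G)⁻¹ * a * b₁) * (a⁻¹ * (b₂ : G)⁻¹ * a * b₂)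
    rw [hrw, hrw (b₁ : G), hrw (b₂ : G), mul_inv_rev]
    rw [commutator_mul hS hA hB hC hx (B.inv_mem b₂.2) (B.inv_mem b₁.2)]
    have h1 : (a⁻¹ * (b₂ : G)⁻¹ * a⁻¹⁻¹ * (b₂ : G)⁻¹⁻¹) * (a⁻¹ * (b₁ : G)⁻¹ * a⁻¹⁻¹ * (b₁ : G)⁻¹⁻¹) =
        (a⁻¹ * (b₁ : G)⁻¹ * a⁻¹⁻¹ * (b₁ : G)⁻¹⁻¹) * (a⁻¹ * (b₂ : G)⁻¹ * a⁻¹⁻¹ * (b₂ : G)⁻¹⁻¹) :=
      hcommC _ (Subgroup.commutator_mem_commutator hx (B.inv_mem b₂.2))
        _ (Subgroup.commutator_mem_commutator hx (B.inv_mem b₁.2))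
    rw [h1])
  have hinj : Function.Injective f := by
    rw [injective_iff_map_eq_one]
    rintro ⟨b, hb⟩ h1
    have h2 : a⁻¹ * b⁻¹ * a * b = 1 := congrArg Subtype.val h1
    rw [hrw] at h2
    have h3 := eq_one_of_commutator_eq_one hS hA hB hC hF hAF hx hx1 (B.inv_mem hb) h2
    apply Subtype.ext
    show b = 1
    simpa using h3
  have hsurj : Function.Surjective f := by
    rintro ⟨c, hc⟩
    obtain ⟨b, hb, e⟩ := exists_commutator_eq hS hA hB hC hx hx1 hc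
    refine ⟨⟨b⁻¹, B.inv_mem hb⟩, ?_⟩
    apply Subtype.ext
    show a⁻¹ * (b⁻¹)⁻¹ * a * b⁻¹ = c
    rw [← e]
    simp
  exact ⟨MulEquiv.ofBijective f ⟨hinj, hsurj⟩, fun b => rfl⟩

end line

end CfsgLib.RootSet
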