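import Cfsg.Prelude.Def_RootSubgroups

/-!
# Rank one groups: basic theory

`A`, `B` a rank one pair; the set `Ω` of conjugates of `A` under `⟨A, B⟩`, the doubly transitive action on `Ω`.
-/

set_option autoImplicit false

open Cfsg

namespace CfsgLib.RankOne

variable {G : Type*} [Group G]

theorem mem_conjBy {A : Subgroup G} {g x : G} : x ∈ conjBy A g ↔ g⁻¹ * x * g ∈ A := by
  constructor
  · intro hx
    obtain ⟨y, hy, rfl⟩ := Subgroup.mem_map.1 hx
    have e : g⁻¹ * ((MulAut.conj g).toMonoidHom y) * g = y := by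
      simp [MulAut.conj_apply, mul_assoc]
    rw [e]
    exact hy
  · intro hx
    refine Subgroup.mem_map.2 ⟨_, hx, ?_⟩
    simp [MulAut.conj_apply, mul_assoc]

theorem conj_mem_conjBy {A : Subgroup G} (g : G) {x : G} (hx : x ∈ A) : g * x * g⁻¹ ∈ conjBy A g :=
  Subgroup.mem_map.2 ⟨x, hx, by simp [MulAut.conj_apply]⟩

@[simp] theorem conjBy_conjBy (A : Subgroup G) (g h : G) : conjBy (conjBy A g) h = conjBy A (h * g) := by
  ext x
  simp only [mem_conjBy]
  have e : g⁻¹ * (h⁻¹ * x * h) * g = (h * g)⁻¹ * x * (h * g) := by group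
  rw [e]

@[simp] theorem conjBy_one (A : Subgroup G) : conjBy A 1 = A := by
  ext x
  simp

theorem conjBy_of_mem {A : Subgroup G} {g : G} (hg : g ∈ A) : conjBy A g = A := by
  ext x
  rw [mem_conjBy]
  constructor
  · intro h
    have e : x = g * (g⁻¹ * x * g) * g⁻¹ := by group
    rw [e]
    exact A.mul_mem (A.mul_mem hg h) (A.inv_mem hg)
  · intro h
    exact A.mul_mem (A.mul_mem (A.inv_mem hg) h) hg

theorem conjBy_inv_conjBy (A : Subgroup G) (g : G) : conjBy (conjBy A g) g⁻¹ = A := by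
  simp

theorem conjBy_conjBy_inv (A : Subgroup G) (g : G) : conjBy (conjBy A g⁻¹) g = A := by
  simp

theorem eq_conjBy_inv_iff {A C : Subgroup G} {g : G} : conjBy A g = C ↔ A = conjBy C g⁻¹ := by
  constructor
  · rintro rfl; simp
  · rintro rfl; simp

theorem conjBy_injective (g : G) : Function.Injective (fun A : Subgroup G => conjBy A g) := by
  intro A C h
  have h' : conjBy A g = conjBy C g := h
  have := congrArg (fun D => conjBy D g⁻¹) h'
  simpa using this

theorem conjBy_le_conjBy {A C : Subgroup G} (g : G) (h : A ≤ C) : conjBy A g ≤ conjBy C g :=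
  Subgroup.map_mono h

theorem conjBy_sup (A C : Subgroup G) (g : G) : conjBy (A ⊔ C) g = conjBy A g ⊔ conjBy C g :=
  Subgroup.map_sup _ _ _

theorem conjBy_eq_self_iff {A : Subgroup G} {g : G} :
    conjBy A g = A ↔ g ∈ Subgroup.normalizer (A : Set G) := by
  rw [Subgroup.mem_normalizer_iff]
  constructor
  · intro h x
    constructor
    · intro hx
      have := conj_mem_conjBy g hx
      rwa [h] at this
    · intro hx
      have h2 : g * x * g⁻¹ ∈ conjBy A g := by rw [h]; exact hx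
      have h3 := mem_conjBy.1 h2
      have e : g⁻¹ * (g * x * g⁻¹) * g = x := by group
      rwa [e] at h3
  · intro h
    ext x
    rw [mem_conjBy]
    have h2 := h (g⁻¹ * x * g)
    have e : g * (g⁻¹ * x * g) * g⁻¹ = x := by group
    rw [e] at h2
    exact h2

theorem conjBy_eq_conjBy_iff {A : Subgroup G} {g h : G} :
    conjBy A g = conjBy A h ↔ g⁻¹ * h ∈ Subgroup.normalizer (A : Set G) := by
  rw [← conjBy_eq_self_iff]
  constructor
  · intro e
    rw [← conjBy_conjBy, ← e]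
    simp
  · intro e
    conv_lhs => rw [← e]
    simp

/-- Invariance under `A` and `B` gives invariance under `A ⊔ B`. -/
theorem sup_invariant {A B : Subgroup G} (Sg : Set (Subgroup G))
    (hA : ∀ a ∈ A, ∀ C ∈ Sg, conjBy C a ∈ Sg) (hB : ∀ b ∈ B, ∀ C ∈ Sg, conjBy C b ∈ Sg) :
    ∀ x ∈ A ⊔ B, ∀ C ∈ Sg, conjBy C x ∈ Sg := by
  let St : Subgroup G :=
    { carrier := {x | (∀ C ∈ Sg, conjBy C x ∈ Sg) ∧ (∀ C ∈ Sg, conjBy C x⁻¹ ∈ Sg)}
      mul_mem' := by
        rintro x y ⟨hx, hx'⟩ ⟨hy, hy'⟩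
        refine ⟨fun C hC => ?_, fun C hC => ?_⟩
        · rw [← conjBy_conjBy]; exact hx _ (hy _ hC)
        · rw [mul_inv_rev, ← conjBy_conjBy]; exact hy' _ (hx' _ hC)
      one_mem' := by
        refine ⟨fun C hC => by simpa using hC, fun C hC => by simpa using hC⟩
      inv_mem' := by
        rintro x ⟨hx, hx'⟩
        refine ⟨hx', fun C hC => ?_⟩
        rw [inv_inv]; exact hx C hC }
  have h1 : A ≤ St := fun a ha => ⟨hA a ha, hA a⁻¹ (A.inv_mem ha)⟩
  have h2 : B ≤ St := fun b hb => ⟨hB b hb, hB b⁻¹ (B.inv_mem hb)⟩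
  intro x hx
  exact (sup_le h1 h2 hx).1

variable {A B : Subgroup G}

theorem ne_bot_left (h : IsRankOnePair A B) : A ≠ ⊥ := by
  rintro rfl
  apply h.ne
  symm
  rw [eq_bot_iff]
  intro b hb
  by_contra hb1
  obtain ⟨a, ha, ha1, _⟩ := h.cond_right b hb hb1
  exact ha1 ha

theorem ne_bot_right (h : IsRankOnePair A B) : B ≠ ⊥ := ne_bot_left (RankOnePair_symm h)

theorem exists_ne_one_left (h : IsRankOnePair A B) : ∃ a ∈ A, a ≠ 1 :=
  (Subgroup.ne_bot_iff_exists_ne_one.1 (ne_bot_left h)).elim fun a ha => ⟨a, a.2, by simpa using ha⟩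

theorem exists_ne_one_right (h : IsRankOnePair A B) : ∃ b ∈ B, b ≠ 1 :=
  exists_ne_one_left (RankOnePair_symm h)

/-- No non-identity element of `A` normalises `B`. -/
theorem eq_one_of_conjBy_eq (h : IsRankOnePair A B) {a : G} (ha : a ∈ A) (hn : conjBy B a = B) :
    a = 1 := by
  by_contra ha1
  have ha1' : a⁻¹ ≠ 1 := inv_ne_one.2 ha1
  obtain ⟨b, hb, _, e⟩ := h.cond_left a⁻¹ (A.inv_mem ha) ha1'
  rw [inv_inv, hn] at e
  apply h.ne
  have := congrArg (fun D => conjBy D b) e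
  simp only [conjBy_conjBy, mul_inv_cancel, conjBy_one] at this
  rw [this, conjBy_of_mem hb]

theorem inf_normalizer_eq_bot (h : IsRankOnePair A B) : A ⊓ Subgroup.normalizer (B : Set G) = ⊥ := by
  rw [eq_bot_iff]
  rintro a ⟨ha, han⟩
  exact eq_one_of_conjBy_eq h ha (conjBy_eq_self_iff.2 han)

theorem conjBy_right_injOn (h : IsRankOnePair A B) {a a' : G} (ha : a ∈ A) (ha' : a' ∈ A)
    (e : conjBy B a = conjBy B a') : a = a' := by
  have h1 : conjBy B (a⁻¹ * a') = B := by
    rw [← conjBy_conjBy, ← e]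
    simp
  have h2 := eq_one_of_conjBy_eq h (A.mul_mem (A.inv_mem ha) ha') h1
  have e2 : a' = a * (a⁻¹ * a') := by group
  rw [e2, h2, mul_one]

/-- The description of the conjugates of `A` under `⟨A, B⟩`. -/
def Sigma (A B : Subgroup G) : Set (Subgroup G) := {C | C = A ∨ ∃ a ∈ A, C = conjBy B a}

theorem sigma_invariant (h : IsRankOnePair A B) :
    ∀ x ∈ A ⊔ B, ∀ C ∈ Sigma A B, conjBy C x ∈ Sigma A B := by
  apply sup_invariant
  · rintro a ha C (rfl | ⟨a', ha', rfl⟩)
    · left; exact conjBy_of_mem ha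
    · right
      exact ⟨a * a', A.mul_mem ha ha', by simp⟩
  · have key : ∀ b ∈ B, conjBy A b ∈ Sigma A B := by
      intro b hb
      by_cases hb1 : b = 1
      · left; rw [hb1]; simp
      · have hb1' : b⁻¹ ≠ 1 := inv_ne_one.2 hb1
        obtain ⟨a, ha, _, e⟩ := h.cond_right b⁻¹ (B.inv_mem hb) hb1'
        rw [inv_inv] at e
        right
        exact ⟨a⁻¹, A.inv_mem ha, e.symm⟩
    rintro b hb C (rfl | ⟨a', ha', rfl⟩)
    · exact key b hb
    · by_cases ha1 : a' = 1
      · right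
        refine ⟨1, A.one_mem, ?_⟩
        rw [ha1]
        simp [conjBy_of_mem hb]
      · have ha1' : a'⁻¹ ≠ 1 := inv_ne_one.2 ha1
        obtain ⟨b₁, hb₁, _, e⟩ := h.cond_left a'⁻¹ (A.inv_mem ha') ha1'
        rw [inv_inv] at e
        rw [← e, conjBy_conjBy]
        exact key _ (B.mul_mem hb (B.inv_mem hb₁))

theorem right_mem_unipotent (h : IsRankOnePair A B) : B ∈ unipotentSubgroups A B := by
  obtain ⟨a, ha, ha1⟩ := exists_ne_one_left h
  have ha1' : a⁻¹ ≠ 1 := inv_ne_one.2 ha1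
  obtain ⟨b, hb, _, e⟩ := h.cond_left a⁻¹ (A.inv_mem ha) ha1'
  rw [inv_inv] at e
  refine ⟨a⁻¹ * b⁻¹, Subgroup.mul_mem _ ((le_sup_left : A ≤ A ⊔ B) (A.inv_mem ha))
    ((le_sup_right : B ≤ A ⊔ B) (B.inv_mem hb)), ?_⟩
  rw [← conjBy_conjBy, e]
  simp

theorem left_mem_unipotent (_h : IsRankOnePair A B) : A ∈ unipotentSubgroups A B :=
  ⟨1, Subgroup.one_mem _, by simp⟩

theorem unipotent_invariant {C : Subgroup G} (hC : C ∈ unipotentSubgroups A B) {x : G}
    (hx : x ∈ A ⊔ B) : conjBy C x ∈ unipotentSubgroups A B := by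
  obtain ⟨y, hy, rfl⟩ := hC
  exact ⟨x * y, Subgroup.mul_mem _ hx hy, by simp⟩

theorem unipotent_eq_sigma (h : IsRankOnePair A B) : unipotentSubgroups A B = Sigma A B := by
  ext C
  constructor
  · rintro ⟨x, hx, rfl⟩
    exact sigma_invariant h x hx A (Or.inl rfl)
  · rintro (rfl | ⟨a, ha, rfl⟩)
    · exact left_mem_unipotent h
    · exact unipotent_invariant (right_mem_unipotent h) ((le_sup_left : A ≤ A ⊔ B) ha)

theorem conjBy_right_ne_left (h : IsRankOnePair A B) {a : G} (ha : a ∈ A) : conjBy B a ≠ A := by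
  intro e
  apply h.ne
  have := congrArg (fun D => conjBy D a⁻¹) e
  simp only [conjBy_conjBy, inv_mul_cancel, conjBy_one] at this
  rw [this, conjBy_of_mem (A.inv_mem ha)]

/-- Any member of `Ω` other than `A` is uniquely `a B a⁻¹`. -/
theorem exists_conjBy_right (h : IsRankOnePair A B) {C : Subgroup G}
    (hC : C ∈ unipotentSubgroups A B) (hne : C ≠ A) : ∃ a ∈ A, C = conjBy B a := by
  rw [unipotent_eq_sigma h] at hC
  rcases hC with rfl | h'
  · exact absurd rfl hne
  · exact h'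

/-- Any two distinct members of `Ω` can be moved to `(A, B)`. -/
theorem exists_move (h : IsRankOnePair A B) {C D : Subgroup G}
    (hC : C ∈ unipotentSubgroups A B) (hD : D ∈ unipotentSubgroups A B) (hne : C ≠ D) :
    ∃ x ∈ A ⊔ B, conjBy C x = A ∧ conjBy D x = B := by
  obtain ⟨g, hg, rfl⟩ := hC
  have hg' : g⁻¹ ∈ A ⊔ B := Subgroup.inv_mem _ hg
  have hD' := unipotent_invariant hD hg'
  have hD'ne : conjBy D g⁻¹ ≠ A := by
    intro e
    apply hne
    have := congrArg (fun E => conjBy E g) e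
    simp only [conjBy_conjBy, mul_inv_cancel, conjBy_one] at this
    exact this.symm
  obtain ⟨a, ha, e⟩ := exists_conjBy_right h hD' hD'ne
  refine ⟨a⁻¹ * g⁻¹, Subgroup.mul_mem _ ((le_sup_left : A ≤ A ⊔ B) (A.inv_mem ha)) hg', ?_, ?_⟩
  · rw [conjBy_conjBy]
    have : a⁻¹ * g⁻¹ * g = a⁻¹ := by group
    rw [this]
    exact conjBy_of_mem (A.inv_mem ha)
  · rw [← conjBy_conjBy, e]
    simp

/-- Double transitivity. -/
theorem doubly_transitive (h : IsRankOnePair A B) {C₁ C₂ D₁ D₂ : Subgroup G}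
    (hC₁ : C₁ ∈ unipotentSubgroups A B) (hC₂ : C₂ ∈ unipotentSubgroups A B)
    (hD₁ : D₁ ∈ unipotentSubgroups A B) (hD₂ : D₂ ∈ unipotentSubgroups A B)
    (hC : C₁ ≠ C₂) (hD : D₁ ≠ D₂) :
    ∃ x ∈ A ⊔ B, conjBy C₁ x = D₁ ∧ conjBy C₂ x = D₂ := by
  obtain ⟨x, hx, h1, h2⟩ := exists_move h hC₁ hC₂ hC
  obtain ⟨y, hy, h3, h4⟩ := exists_move h hD₁ hD₂ hD
  refine ⟨y⁻¹ * x, Subgroup.mul_mem _ (Subgroup.inv_mem _ hy) hx, ?_, ?_⟩
  · rw [← conjBy_conjBy, h1, ← h3]; simp
  · rw [← conjBy_conjBy, h2, ← h4]; simp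

/-- Regularity of `A` on `Ω ∖ {A}`. -/
theorem regular (h : IsRankOnePair A B) {C D : Subgroup G}
    (hC : C ∈ unipotentSubgroups A B) (hD : D ∈ unipotentSubgroups A B) (hCA : C ≠ A) (hDA : D ≠ A) :
    ∃! a : G, a ∈ A ∧ conjBy C a = D := by
  obtain ⟨a₁, ha₁, rfl⟩ := exists_conjBy_right h hC hCA
  obtain ⟨a₂, ha₂, rfl⟩ := exists_conjBy_right h hD hDA
  refine ⟨a₂ * a₁⁻¹, ⟨A.mul_mem ha₂ (A.inv_mem ha₁), by simp⟩, ?_⟩
  rintro a ⟨ha, e⟩
  rw [conjBy_conjBy] at e
  have := conjBy_right_injOn h (A.mul_mem ha ha₁) ha₂ e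
  rw [← this]
  group

theorem eq_one_of_fix (h : IsRankOnePair A B) {C : Subgroup G}
    (hC : C ∈ unipotentSubgroups A B) (hCA : C ≠ A) {a : G} (ha : a ∈ A) (e : conjBy C a = C) : a = 1 := by
  obtain ⟨a₁, ha₁, rfl⟩ := exists_conjBy_right h hC hCA
  rw [conjBy_conjBy] at e
  have := conjBy_right_injOn h (A.mul_mem ha ha₁) ha₁ e
  simpa using this

/-- There are three different members of `Ω`. -/
theorem three_members (h : IsRankOnePair A B) :
    ∃ a ∈ A, a ≠ 1 ∧ conjBy B a ≠ B ∧ conjBy B a ≠ A := by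
  obtain ⟨a, ha, ha1⟩ := exists_ne_one_left h
  exact ⟨a, ha, ha1, fun e => ha1 (eq_one_of_conjBy_eq h ha e), conjBy_right_ne_left h ha⟩

/-- Any two distinct members of `Ω` form a rank one pair. -/
theorem IsRankOnePair_conjBy (h : IsRankOnePair A B) (g : G) :
    IsRankOnePair (conjBy A g) (conjBy B g) := by
  have hcond : ∀ {P Q : Subgroup G}, RankOneCondition P Q →
      RankOneCondition (conjBy P g) (conjBy Q g) := by
    intro P Q hc a ha ha1
    have h1 := mem_conjBy.1 ha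
    have h1' : g⁻¹ * a * g ≠ 1 := by
      intro e
      apply ha1
      have e2 : a = g * (g⁻¹ * a * g) * g⁻¹ := by group
      rw [e2, e]; group
    obtain ⟨b, hb, hb1, e⟩ := hc _ h1 h1'
    refine ⟨g * b * g⁻¹, conj_mem_conjBy g hb, ?_, ?_⟩
    · intro e2
      apply hb1
      have e3 : b = g⁻¹ * (g * b * g⁻¹) * g := by group
      rw [e3, e2]; group
    · rw [conjBy_conjBy, conjBy_conjBy]
      have e4 := congrArg (fun D => conjBy D g) e
      simp only [conjBy_conjBy] at e4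
      have e5 : (g * b * g⁻¹)⁻¹ * g = g * b⁻¹ := by group
      have e6 : a⁻¹ * g = g * (g⁻¹ * a * g)⁻¹ := by group
      rw [e5, e6]
      exact e4
  have hnil : ∀ {P : Subgroup G}, Group.IsNilpotent P → Group.IsNilpotent (conjBy P g) := by
    intro P hP
    have e : P ≃* (conjBy P g : Subgroup G) :=
      P.equivMapOfInjective _ (MulAut.conj g).injective
    exact Group.nilpotent_of_mulEquiv e
  refine ⟨?_, hnil h.nilpotent_left, hnil h.nilpotent_right, hcond h.cond_left, hcond h.cond_right⟩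
  intro e
  exact h.ne (conjBy_injective g e)

theorem sup_eq_of_mem_sup {X : Subgroup G} {x : G} (hx : x ∈ X) : conjBy X x = X :=
  conjBy_of_mem hx

/-- Any two distinct members of `Ω` form a rank one pair generating the same group. -/
theorem rankOne_of_mem_unipotent (h : IsRankOnePair A B) {C D : Subgroup G}
    (hC : C ∈ unipotentSubgroups A B) (hD : D ∈ unipotentSubgroups A B) (hne : C ≠ D) :
    IsRankOnePair C D ∧ C ⊔ D = A ⊔ B ∧ unipotentSubgroups C D = unipotentSubgroups A B := by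
  obtain ⟨x, hx, h1, h2⟩ := exists_move h hC hD hne
  have e1 : C = conjBy A x⁻¹ := by rw [← h1]; simp
  have e2 : D = conjBy B x⁻¹ := by rw [← h2]; simp
  have hx' : x⁻¹ ∈ A ⊔ B := Subgroup.inv_mem _ hx
  have h3 : C ⊔ D = A ⊔ B := by
    rw [e1, e2, ← conjBy_sup]
    exact conjBy_of_mem hx'
  refine ⟨?_, h3, ?_⟩
  · rw [e1, e2]
    exact IsRankOnePair_conjBy h x⁻¹
  · ext E
    constructor
    · rintro ⟨y, hy, rfl⟩
      rw [h3] at hy
      exact unipotent_invariant hC hy
    · rintro ⟨y, hy, rfl⟩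
      refine ⟨y * x, ?_, ?_⟩
      · rw [h3]; exact Subgroup.mul_mem _ hy hx
      · rw [← conjBy_conjBy, h1]

/-- Elements acting trivially on `Ω` and lying in a normal subgroup: the kernel is central. -/
theorem commute_of_trivial_action (h : IsRankOnePair A B) {N : Subgroup G}
    (hN : ∀ x ∈ A ⊔ B, ∀ n ∈ N, x * n * x⁻¹ ∈ N)
    (htriv : ∀ n ∈ N, conjBy A n = A ∧ conjBy B n = B) {n : G} (hn : n ∈ N) :
    n ∈ Subgroup.centralizer ((A ⊔ B : Subgroup G) : Set G) := by
  have hA : ∀ a ∈ A, a * n = n * a := by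
    intro a ha
    have h1 : n * a * n⁻¹ ∈ A := by
      have := conj_mem_conjBy n ha
      rwa [(htriv n hn).1] at this
    have h2 : a * n * a⁻¹ ∈ N := hN a ((le_sup_left : A ≤ A ⊔ B) ha) n hn
    have h3 : n * a * n⁻¹ * a⁻¹ ∈ A := A.mul_mem h1 (A.inv_mem ha)
    have h4 : n * a * n⁻¹ * a⁻¹ ∈ N := by
      have e : n * a * n⁻¹ * a⁻¹ = n * (a * n * a⁻¹)⁻¹ := by group
      rw [e]
      exact N.mul_mem hn (N.inv_mem h2)
    have h5 := eq_one_of_conjBy_eq h h3 (htriv _ h4).2
    have e : a * n = n * a := by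
      have : n * a * n⁻¹ * a⁻¹ * (a * n) = n * a := by group
      rw [h5, one_mul] at this
      exact this
    exact e
  have hB : ∀ b ∈ B, b * n = n * b := by
    intro b hb
    have h1 : n * b * n⁻¹ ∈ B := by
      have := conj_mem_conjBy n hb
      rwa [(htriv n hn).2] at this
    have h2 : b * n * b⁻¹ ∈ N := hN b ((le_sup_right : B ≤ A ⊔ B) hb) n hn
    have h3 : n * b * n⁻¹ * b⁻¹ ∈ B := B.mul_mem h1 (B.inv_mem hb)
    have h4 : n * b * n⁻¹ * b⁻¹ ∈ N := by
      have e : n * b * n⁻¹ * b⁻¹ = n * (b * n * b⁻¹)⁻¹ := by group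
      rw [e]
      exact N.mul_mem hn (N.inv_mem h2)
    have h5 := eq_one_of_conjBy_eq (RankOnePair_symm h) h3 (htriv _ h4).1
    have e : b * n = n * b := by
      have : n * b * n⁻¹ * b⁻¹ * (b * n) = n * b := by group
      rw [h5, one_mul] at this
      exact this
    exact e
  rw [Subgroup.mem_centralizer_iff]
  intro x hx
  have hx' : x ∈ A ⊔ B := hx
  have hle : A ⊔ B ≤ Subgroup.centralizer ({n} : Set G) := by
    apply sup_le
    · intro a ha
      rw [Subgroup.mem_centralizer_iff]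
      rintro _ rfl
      exact (hA a ha).symm
    · intro b hb
      rw [Subgroup.mem_centralizer_iff]
      rintro _ rfl
      exact (hB b hb).symm
  have := hle hx'
  rw [Subgroup.mem_centralizer_iff] at this
  exact (this n rfl).symm

/-- A subgroup of `⟨A, B⟩` normalised by `⟨A, B⟩` either moves `A` to `B`, or it centralises `⟨A, B⟩`. -/
theorem exists_move_or_central (h : IsRankOnePair A B) {N : Subgroup G} (hNle : N ≤ A ⊔ B)
    (hN : ∀ x ∈ A ⊔ B, ∀ n ∈ N, x * n * x⁻¹ ∈ N) :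
    (∃ m ∈ N, conjBy A m = B) ∨ ∀ n ∈ N, n ∈ Subgroup.centralizer ((A ⊔ B : Subgroup G) : Set G) := by
  by_cases htriv : ∀ n ∈ N, conjBy A n = A ∧ conjBy B n = B
  · right
    intro n hn
    exact commute_of_trivial_action h hN htriv hn
  · left
    push Not at htriv
    have hA := left_mem_unipotent h
    have hB := right_mem_unipotent h
    -- some `n ∈ N` moves a member of `Ω`
    obtain ⟨C, hC, n, hn, hmove⟩ : ∃ C ∈ unipotentSubgroups A B, ∃ n ∈ N, conjBy C n ≠ C := by
      obtain ⟨n, hn, hn2⟩ := htriv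
      by_cases hA' : conjBy A n = A
      · exact ⟨B, hB, n, hn, hn2 hA'⟩
      · exact ⟨A, hA, n, hn, hA'⟩
    have hDΩ : conjBy C n ∈ unipotentSubgroups A B := unipotent_invariant hC (hNle hn)
    obtain ⟨x, hx, h1, h2⟩ := doubly_transitive h hC hDΩ hA hB hmove.symm h.ne
    refine ⟨x * n * x⁻¹, hN x hx n hn, ?_⟩
    rw [← h1, ← h2]
    simp only [conjBy_conjBy]
    congr 1
    group

/-- A subgroup of `⟨A, B⟩` normalised by `⟨A, B⟩` together with `A` generates `⟨A, B⟩`, or it centralises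
`⟨A, B⟩`. -/
theorem normal_dichotomy (h : IsRankOnePair A B) {N : Subgroup G} (hNle : N ≤ A ⊔ B)
    (hN : ∀ x ∈ A ⊔ B, ∀ n ∈ N, x * n * x⁻¹ ∈ N) :
    N ⊔ A = A ⊔ B ∨ ∀ n ∈ N, n ∈ Subgroup.centralizer ((A ⊔ B : Subgroup G) : Set G) := by
  rcases exists_move_or_central h hNle hN with ⟨m, hm, e⟩ | h1
  · left
    apply le_antisymm
    · exact sup_le hNle le_sup_left
    · apply sup_le le_sup_right
      rw [← e]
      intro y hy
      have h1 := mem_conjBy.1 hy
      have e2 : y = m * (m⁻¹ * y * m) * m⁻¹ := by group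
      rw [e2]
      have hm' : m ∈ N ⊔ A := (le_sup_left : N ≤ N ⊔ A) hm
      exact Subgroup.mul_mem _ (Subgroup.mul_mem _ hm' ((le_sup_right : A ≤ N ⊔ A) h1))
        (Subgroup.inv_mem _ hm')
  · exact Or.inr h1

theorem isNilpotent_of_comm {H : Type*} [Group H] (h : IsMulCommutative H) : Group.IsNilpotent H := by
  letI : CommGroup H := { (inferInstance : Group H) with mul_comm := mul_comm' }
  exact CommGroup.isNilpotent

theorem conjBy_of_center {z : G} (hz : z ∈ Subgroup.center G) (C : Subgroup G) : conjBy C z = C := by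
  ext x
  rw [mem_conjBy]
  have : z⁻¹ * x * z = x := by
    have h3 := Subgroup.mem_center_iff.1 hz x
    rw [mul_assoc, h3]
    group
  rw [this]

theorem conjBy_of_mem_centralizer {z : G} {C : Subgroup G} (hz : z ∈ Subgroup.centralizer (C : Set G)) :
    conjBy C z = C := by
  ext x
  rw [mem_conjBy]
  constructor
  · intro hx
    have h3 := Subgroup.mem_centralizer_iff.1 hz _ hx
    have e : x = (z * (z⁻¹ * x * z)) * z⁻¹ := by group
    rw [e, ← h3]
    have e2 : z⁻¹ * x * z * z * z⁻¹ = z⁻¹ * x * z := by group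
    rw [e2]
    exact hx
  · intro hx
    have h3 := Subgroup.mem_centralizer_iff.1 hz _ hx
    have e : z⁻¹ * x * z = z⁻¹ * (x * z) := by group
    rw [e, h3]
    have e2 : z⁻¹ * (z * x) = x := by group
    rw [e2]
    exact hx

end CfsgLib.RankOne
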