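import Cfsg.Agent.Lib.RootSub.RankOne

/-!
# Sets of abstract root subgroups: first lemmas
-/

set_option autoImplicit false

open Cfsg CfsgLib.RankOne

namespace CfsgLib.RootSet

variable {G : Type*} [Group G]

theorem commute_of_commutator_eq_bot {A B : Subgroup G} (h : ⁅A, B⁆ = ⊥) {a b : G} (ha : a ∈ A) (hb : b ∈ B) :
    a * b = b * a := by
  have h1 : a * b * a⁻¹ * b⁻¹ ∈ ⁅A, B⁆ := Subgroup.commutator_mem_commutator ha hb
  rw [h, Subgroup.mem_bot] at h1
  have : a * b = (a * b * a⁻¹ * b⁻¹) * (b * a) := by group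
  rw [this, h1, one_mul]

theorem commutator_eq_bot_of_commute {A B : Subgroup G} (h : ∀ a ∈ A, ∀ b ∈ B, a * b = b * a) : ⁅A, B⁆ = ⊥ := by
  rw [Subgroup.commutator_eq_bot_iff_le_centralizer]
  intro a ha
  rw [Subgroup.mem_centralizer_iff]
  intro b hb
  exact (h a ha b hb).symm

theorem conjBy_eq_of_commute {C : Subgroup G} {z : G} (h : ∀ c ∈ C, z * c = c * z) : conjBy C z = C := by
  apply conjBy_of_mem_centralizer
  rw [Subgroup.mem_centralizer_iff]
  intro c hc
  exact (h c hc).symm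

/-- In a rank one pair `(A, F)`: for `x ∈ A#`, if `x f x⁻¹` normalises `F` then `f = 1`. -/
theorem eq_one_of_conj_normalizes {A F : Subgroup G} (h : IsRankOnePair A F) {x f : G} (hx : x ∈ A) (hx1 : x ≠ 1)
    (hf : f ∈ F) (hn : conjBy F (x * f * x⁻¹) = F) : f = 1 := by
  have hF := right_mem_unipotent h
  have hF' : conjBy F x ∈ unipotentSubgroups A F := unipotent_invariant hF ((le_sup_left : A ≤ A ⊔ F) hx)
  have hne : conjBy F x ≠ F := fun e => hx1 (eq_one_of_conjBy_eq h hx e)
  obtain ⟨hpair, _, _⟩ := rankOne_of_mem_unipotent h hF' hF hne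
  have h1 := eq_one_of_conjBy_eq hpair (conj_mem_conjBy x hf) hn
  have e : f = x⁻¹ * (x * f * x⁻¹) * x := by group
  rw [e, h1]
  group

/-- In the commutator case with `x ∈ B#`, there is `f ∈ F` with `x f x⁻¹ f⁻¹ ≠ 1`. -/
theorem exists_commutator_ne_one {S : Set (Subgroup G)} (hS : IsRootSubgroupSet S) {B F : Subgroup G}
    (hc : RootCommutatorCase S B F) {x : G} (hx : x ∈ B) (hx1 : x ≠ 1) :
    ∃ f ∈ F, x * f * x⁻¹ * f⁻¹ ≠ 1 ∧ x * f * x⁻¹ * f⁻¹ ∈ ⁅B, F⁆ := by
  obtain ⟨h1, _, h3, _⟩ := hc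
  by_contra hcon
  push Not at hcon
  have hne := hS.ne_bot _ h1
  apply hne
  rw [← h3 x hx hx1, eq_bot_iff, Subgroup.closure_le]
  rintro _ ⟨f, hf, rfl⟩
  have hmem : x * f * x⁻¹ * f⁻¹ ∈ ⁅B, F⁆ := Subgroup.commutator_mem_commutator hx hf
  show _ ∈ (⊥ : Subgroup G)
  rw [Subgroup.mem_bot]
  by_contra hne2
  exact hcon f hf hne2 hmem

/-- **S5028**: A member with a rank one partner meets every other member trivially. -/
theorem inf_eq_bot_or_eq {S : Set (Subgroup G)} (hS : IsRootSubgroupSet S) {A F B : Subgroup G}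
    (hF : F ∈ S) (hAF : IsRankOnePair A F) (hB : B ∈ S) : A ⊓ B = ⊥ ∨ A = B := by
  by_contra hcon
  push Not at hcon
  obtain ⟨hbot, hne⟩ := hcon
  obtain ⟨⟨x, hx⟩, hx1⟩ := Subgroup.ne_bot_iff_exists_ne_one.1 hbot
  have hx1' : x ≠ 1 := by simpa using hx1
  have hxA : x ∈ A := hx.1
  have hxB : x ∈ B := hx.2
  rcases hS.pair B hB F hF with h1 | h1 | h1
  · exact hx1' (eq_one_of_conjBy_eq hAF hxA
      (conjBy_eq_of_commute fun f hf => commute_of_commutator_eq_bot h1 hxB hf))
  · obtain ⟨f₁, hf₁, _, e₁⟩ := h1.cond_left x⁻¹ (B.inv_mem hxB) (inv_ne_one.2 hx1')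
    obtain ⟨f₂, hf₂, _, e₂⟩ := hAF.cond_left x⁻¹ (A.inv_mem hxA) (inv_ne_one.2 hx1')
    have e₃ : conjBy B f₁⁻¹ = conjBy A f₂⁻¹ := e₁.trans e₂.symm
    have e₄ : B = conjBy A (f₁ * f₂⁻¹) := by
      rw [← conjBy_conjBy, ← e₃]
      simp
    have hBΩ : B ∈ unipotentSubgroups A F := by
      rw [e₄]
      exact ⟨f₁ * f₂⁻¹, Subgroup.mul_mem _ ((le_sup_right : F ≤ A ⊔ F) hf₁)
        ((le_sup_right : F ≤ A ⊔ F) (F.inv_mem hf₂)), rfl⟩
    exact hx1' (eq_one_of_fix hAF hBΩ hne.symm hxA (conjBy_of_mem hxB))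
  · obtain ⟨f, hf, hz1, hzmem⟩ := exists_commutator_ne_one hS h1 hxB hx1'
    obtain ⟨_, hcen, _, _⟩ := h1
    have hn : conjBy F (x * f * x⁻¹) = F := by
      have e : x * f * x⁻¹ = (x * f * x⁻¹ * f⁻¹) * f := by group
      rw [e, ← conjBy_conjBy, conjBy_of_mem hf]
      apply conjBy_eq_of_commute
      intro c hc
      exact hcen _ hzmem c ((le_sup_right : F ≤ B ⊔ F) hc)
    have hf1 := eq_one_of_conj_normalizes hAF hxA hx1' hf hn
    apply hz1
    rw [hf1]
    group

/-- **S5025**: If `z ≠ 1` centralises `⟨A, B⟩` then no `z a` (with `a ∈ A#`) is a root element. -/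
theorem central_mul_not_root {S : Set (Subgroup G)} (hS : IsRootSubgroupSet S)
    {A B : Subgroup G} (hB : B ∈ S) (hAB : IsRankOnePair A B) {z : G}
    (hz : z ∈ Subgroup.centralizer ((A ⊔ B : Subgroup G) : Set G)) (hz1 : z ≠ 1)
    {a : G} (ha : a ∈ A) (ha1 : a ≠ 1) : z * a ∉ rootElements S := by
  rintro ⟨hc1, E, hE, hcE⟩
  have hcomm : ∀ y ∈ A ⊔ B, z * y = y * z := fun y hy =>
    (Subgroup.mem_centralizer_iff.1 hz y hy).symm
  have haX : a ∈ A ⊔ B := (le_sup_left : A ≤ A ⊔ B) ha
  -- `z a` acts on subgroups of `⟨A, B⟩` as `a`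
  have hact : ∀ C : Subgroup G, C ≤ A ⊔ B → conjBy C (z * a) = conjBy C a := by
    intro C hC
    rw [← conjBy_conjBy]
    apply conjBy_eq_of_commute
    intro y hy
    apply hcomm
    have h1 := mem_conjBy.1 hy
    have e : y = a * (a⁻¹ * y * a) * a⁻¹ := by group
    rw [e]
    exact Subgroup.mul_mem _ (Subgroup.mul_mem _ haX (hC h1)) (Subgroup.inv_mem _ haX)
  rcases hS.pair E hE B hB with h1 | h1 | h1
  · have h2 : conjBy B (z * a) = B :=
      conjBy_eq_of_commute fun b hb => commute_of_commutator_eq_bot h1 hcE hb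
    rw [hact B le_sup_right] at h2
    exact ha1 (eq_one_of_conjBy_eq hAB ha h2)
  · obtain ⟨b₁, hb₁, _, e₁⟩ := h1.cond_left (z * a)⁻¹ (E.inv_mem hcE) (inv_ne_one.2 hc1)
    obtain ⟨b₂, hb₂, _, e₂⟩ := hAB.cond_left a⁻¹ (A.inv_mem ha) (inv_ne_one.2 ha1)
    rw [inv_inv, hact B le_sup_right] at e₁
    rw [inv_inv] at e₂
    have e₃ : conjBy E b₁⁻¹ = conjBy A b₂⁻¹ := e₁.trans e₂.symm
    have e₄ : E = conjBy A (b₁ * b₂⁻¹) := by
      rw [← conjBy_conjBy, ← e₃]
      simp
    have hEΩ : E ∈ unipotentSubgroups A B := by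
      rw [e₄]
      exact ⟨b₁ * b₂⁻¹, Subgroup.mul_mem _ ((le_sup_right : B ≤ A ⊔ B) hb₁)
        ((le_sup_right : B ≤ A ⊔ B) (B.inv_mem hb₂)), rfl⟩
    have hEle : E ≤ A ⊔ B := by
      rw [e₄]
      intro y hy
      have h2 := mem_conjBy.1 hy
      have h3 : b₁ * b₂⁻¹ ∈ A ⊔ B := Subgroup.mul_mem _ ((le_sup_right : B ≤ A ⊔ B) hb₁)
        ((le_sup_right : B ≤ A ⊔ B) (B.inv_mem hb₂))
      have e : y = (b₁ * b₂⁻¹) * ((b₁ * b₂⁻¹)⁻¹ * y * (b₁ * b₂⁻¹)) * (b₁ * b₂⁻¹)⁻¹ := by group
      rw [e]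
      exact Subgroup.mul_mem _ (Subgroup.mul_mem _ h3 ((le_sup_left : A ≤ A ⊔ B) h2)) (Subgroup.inv_mem _ h3)
    by_cases hEA : E = A
    · -- `z ∈ A`
      subst hEA
      have hzA : z ∈ E := by
        have e : z = (z * a) * a⁻¹ := by group
        rw [e]
        exact E.mul_mem hcE (E.inv_mem ha)
      exact hz1 (eq_one_of_conjBy_eq hAB hzA
        (conjBy_eq_of_commute fun b hb => hcomm b ((le_sup_right : B ≤ E ⊔ B) hb)))
    · have h2 : conjBy E (z * a) = E := conjBy_of_mem hcE
      rw [hact E hEle] at h2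
      exact ha1 (eq_one_of_fix hAB hEΩ hEA ha h2)
  · obtain ⟨b, hb, hw1, hwmem⟩ := exists_commutator_ne_one hS h1 hcE hc1
    obtain ⟨_, hcen, _, _⟩ := h1
    have hbX : b ∈ A ⊔ B := (le_sup_right : B ≤ A ⊔ B) hb
    have h2 : (z * a) * b * (z * a)⁻¹ = a * b * a⁻¹ := by
      have h3 : a * b * a⁻¹ ∈ A ⊔ B := Subgroup.mul_mem _ (Subgroup.mul_mem _ haX hbX) (Subgroup.inv_mem _ haX)
      have e : (z * a) * b * (z * a)⁻¹ = z * (a * b * a⁻¹) * z⁻¹ := by group
      rw [e, hcomm _ h3]
      group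
    rw [h2] at hw1 hwmem
    have hn : conjBy B (a * b * a⁻¹) = B := by
      have e : a * b * a⁻¹ = (a * b * a⁻¹ * b⁻¹) * b := by group
      rw [e, ← conjBy_conjBy, conjBy_of_mem hb]
      apply conjBy_eq_of_commute
      intro c hc
      exact hcen _ hwmem c ((le_sup_right : B ≤ E ⊔ B) hc)
    have hb1 := eq_one_of_conj_normalizes hAB ha ha1 hb hn
    apply hw1
    rw [hb1]
    group

/-- The partner from non-isolation. -/
theorem exists_partner {S : Set (Subgroup G)} {A : Subgroup G}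
    (hA : ¬ IsIsolatedIn (FAdj S) S A) (hAS : A ∈ S) : ∃ F ∈ S, IsRankOnePair A F := by
  by_contra hcon
  push Not at hcon
  apply hA
  refine ⟨hAS, fun B => ⟨?_, ?_⟩⟩
  · rintro ⟨_, hB, hp⟩
    exact hcon B hB hp
  · rintro ⟨hB, _, hp⟩
    exact hcon B hB (RankOnePair_symm hp)

theorem le_centralizer_zpowers_iff {E : Subgroup G} {x : G} :
    E ≤ Subgroup.centralizer ((Subgroup.zpowers x : Subgroup G) : Set G) ↔ ∀ e ∈ E, e * x = x * e := by
  constructor
  · intro h e he
    have h1 := Subgroup.mem_centralizer_iff.1 (h he) x (Subgroup.mem_zpowers x)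
    exact h1.symm
  · intro h e he
    rw [Subgroup.mem_centralizer_iff]
    intro y hy
    obtain ⟨n, rfl⟩ := Subgroup.mem_zpowers_iff.1 hy
    have hc : Commute e x := h e he
    exact (hc.zpow_right n).symm

/-- **S5026** -/
theorem centralizing_mul {S : Set (Subgroup G)} (hS : IsRootSubgroupSet S) (hdeg : IsDegenerateRootSet S)
    {a b : G} (ha : a ∈ rootElements S) (hb : b ∈ rootElements S) (hab : a * b = b * a) (hab1 : a * b ≠ 1)
    {E : Subgroup G} (hE : E ∈ S) (hcen : ∀ e ∈ E, e * (a * b) = (a * b) * e) :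
    (∀ e ∈ E, e * a = a * e) ∧ (∀ e ∈ E, e * b = b * e) := by
  obtain ⟨ha1, A, hA, haA⟩ := ha
  obtain ⟨hb1, C, hC, hbC⟩ := hb
  have hiff : (∀ e ∈ E, e * a = a * e) ↔ (∀ e ∈ E, e * b = b * e) := by
    constructor
    · intro h e he
      have h1 := hcen e he
      have h2 := h e he
      have : a * (e * b) = a * (b * e) := by
        calc a * (e * b) = (a * e) * b := by group
          _ = (e * a) * b := by rw [h2]
          _ = e * (a * b) := by group
          _ = (a * b) * e := h1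
          _ = a * (b * e) := by group
      exact mul_left_cancel this
    · intro h e he
      have h1 := hcen e he
      have h2 := h e he
      rw [hab] at h1
      have : b * (e * a) = b * (a * e) := by
        calc b * (e * a) = (b * e) * a := by group
          _ = (e * b) * a := by rw [h2]
          _ = e * (b * a) := by group
          _ = (b * a) * e := h1
          _ = b * (a * e) := by group
      exact mul_left_cancel this
  by_contra hcon
  have hna : ¬ ∀ e ∈ E, e * a = a * e := by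
    intro h
    exact hcon ⟨h, hiff.1 h⟩
  have hnb : ¬ ∀ e ∈ E, e * b = b * e := by
    intro h
    exact hna (hiff.2 h)
  have hEA : IsRankOnePair E A := by
    rcases hS.pair E hE A hA with h1 | h1 | h1
    · exact absurd (fun e he => commute_of_commutator_eq_bot h1 he haA) hna
    · exact h1
    · exact absurd h1 (hdeg E hE A hA)
  have hEC : IsRankOnePair E C := by
    rcases hS.pair E hE C hC with h1 | h1 | h1
    · exact absurd (fun e he => commute_of_commutator_eq_bot h1 he hbC) hnb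
    · exact h1
    · exact absurd h1 (hdeg E hE C hC)
  have hAE := RankOnePair_symm hEA
  have hCE := RankOnePair_symm hEC
  -- `conjBy E (a b) = E`
  have h1 : conjBy E (a * b) = E := by
    apply conjBy_eq_of_commute
    intro e he
    exact (hcen e he).symm
  have h2 : conjBy E b = conjBy E a⁻¹ := by
    have := congrArg (fun D => conjBy D a⁻¹) h1
    simp only [conjBy_conjBy] at this
    rw [← this]
    congr 1
    group
  obtain ⟨e₁, he₁, _, e₃⟩ := hAE.cond_left a haA ha1
  obtain ⟨e₂, he₂, _, e₄⟩ := hCE.cond_left b⁻¹ (C.inv_mem hbC) (inv_ne_one.2 hb1)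
  rw [inv_inv] at e₄
  have e₅ : conjBy C e₂⁻¹ = conjBy A e₁⁻¹ := by
    rw [e₄, e₃, h2]
  have e₆ : C = conjBy A (e₂ * e₁⁻¹) := by
    rw [← conjBy_conjBy, ← e₅]
    simp
  by_cases hCA : C = A
  · subst hCA
    have hmem : a * b ∈ C := C.mul_mem haA hbC
    exact hab1 (eq_one_of_conjBy_eq hAE hmem h1)
  · have hCΩ : C ∈ unipotentSubgroups A E := by
      rw [e₆]
      exact ⟨e₂ * e₁⁻¹, Subgroup.mul_mem _ ((le_sup_right : E ≤ A ⊔ E) he₂)
        ((le_sup_right : E ≤ A ⊔ E) (E.inv_mem he₁)), rfl⟩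
    have hne : C ≠ conjBy C a := fun e => ha1 (eq_one_of_fix hAE hCΩ hCA haA e.symm)
    have hconjS : conjBy C a ∈ S := hS.conj_mem C hC a
    rcases inf_eq_bot_or_eq hS hE hCE hconjS with h3 | h3
    · have hb' : b ∈ conjBy C a := by
        rw [mem_conjBy]
        have e : a⁻¹ * b * a = b := by
          have : b * a = a * b := hab.symm
          rw [mul_assoc, this]
          group
        rw [e]
        exact hbC
      have : b ∈ C ⊓ conjBy C a := ⟨hbC, hb'⟩
      rw [h3] at this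
      exact hb1 this
    · exact hne h3

/-- **S5027** -/
theorem second_center_le_center {S : Set (Subgroup G)} (hS : IsRootSubgroupSet S)
    (hF : ∀ A ∈ S, ∃ F ∈ S, IsRankOnePair A F) :
    Subgroup.upperCentralSeries G 2 ≤ Subgroup.center G := by
  intro z hz
  have hkey : ∀ A ∈ S, A ≤ Subgroup.centralizer ({z} : Set G) := by
    intro A hA a ha
    rw [Subgroup.mem_centralizer_iff]
    intro y hy
    rw [show y = z from hy]
    by_cases ha1 : a = 1
    · rw [ha1]; group
    obtain ⟨F, hFS, hp⟩ := hF A hA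
    have hc : z * a * z⁻¹ * a⁻¹ ∈ Subgroup.center G := by
      have h2 := Subgroup.mem_upperCentralSeries_succ_iff.1 hz a
      rw [Subgroup.upperCentralSeries_one] at h2
      exact h2
    set c := z * a * z⁻¹ * a⁻¹ with hcdef
    by_cases hc1 : c = 1
    · have : z * a = c * (a * z) := by rw [hcdef]; group
      rw [this, hc1, one_mul]
    · exfalso
      have hcent : c ∈ Subgroup.centralizer ((A ⊔ F : Subgroup G) : Set G) := by
        rw [Subgroup.mem_centralizer_iff]
        intro y _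
        exact Subgroup.mem_center_iff.1 hc y
      apply central_mul_not_root hS hFS hp hcent hc1 ha ha1
      have e : c * a = z * a * z⁻¹ := by rw [hcdef]; group
      rw [e]
      refine ⟨?_, conjBy A z, hS.conj_mem A hA z, conj_mem_conjBy z ha⟩
      intro h0
      apply ha1
      have : a = z⁻¹ * (z * a * z⁻¹) * z := by group
      rw [this, h0]
      group
  rw [Subgroup.mem_center_iff]
  intro g
  have hg : g ∈ ⨆ A ∈ S, A := by rw [hS.generates]; trivial
  have hle : (⨆ A ∈ S, A) ≤ Subgroup.centralizer ({z} : Set G) := iSup₂_le hkey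
  have := Subgroup.mem_centralizer_iff.1 (hle hg) z rfl
  exact this.symm

/-- A member of `S` inside `⟨C, D⟩`, having a partner inside `⟨C, D⟩`, is a conjugate of `C` under `⟨C, D⟩`. -/
theorem mem_unipotent_of_le {S : Set (Subgroup G)} (hS : IsRootSubgroupSet S)
    {A F C D : Subgroup G} (hA : A ∈ S) (hC : C ∈ S) (hD : D ∈ S)
    (hAF : IsRankOnePair A F) (hCD : IsRankOnePair C D)
    (hAX : A ≤ C ⊔ D) (hFX : F ≤ C ⊔ D) : A ∈ unipotentSubgroups C D := by
  by_contra hnot
  -- for `E` in `Ω(C, D)` belonging to `S` and having a partner, `A` commutes with `E`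
  have key : ∀ E ∈ unipotentSubgroups C D, E ∈ S → E ≤ C ⊔ D → ∀ a ∈ A, ∀ e ∈ E, a * e = e * a := by
    intro E hEΩ hES hEX
    have hEpartner : ∃ E' ∈ S, IsRankOnePair E E' := by
      by_cases hEC : E = C
      · exact ⟨D, hD, by rw [hEC]; exact hCD⟩
      · have := (rankOne_of_mem_unipotent hCD hEΩ (left_mem_unipotent hCD) hEC).1
        exact ⟨C, hC, this⟩
    obtain ⟨E', hE'S, hEE'⟩ := hEpartner
    rcases hS.pair A hA E hES with h1 | h1 | h1
    · intro a ha e he
      exact commute_of_commutator_eq_bot h1 ha he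
    · exfalso
      obtain ⟨a, ha, ha1⟩ := exists_ne_one_left h1
      obtain ⟨e, he, _, e₁⟩ := h1.cond_left a ha ha1
      apply hnot
      have e₂ : A = conjBy E (e * a⁻¹) := by
        rw [← conjBy_conjBy, ← e₁]
        simp
      rw [e₂]
      apply unipotent_invariant hEΩ
      exact Subgroup.mul_mem _ (hEX he) (Subgroup.inv_mem _ (hAX ha))
    · exfalso
      -- `A` normalises `E`
      have hnorm : ∀ a ∈ A, conjBy E a = E := by
        intro a ha
        by_contra hne
        have ha1 : a ≠ 1 := by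
          rintro rfl
          simp at hne
        obtain ⟨e, he, hw1, hwmem⟩ := exists_commutator_ne_one hS h1 ha ha1
        have hcen := h1.2.1
        have hEa : conjBy E a ∈ unipotentSubgroups C D := unipotent_invariant hEΩ (hAX ha)
        obtain ⟨hpair, _, _⟩ := rankOne_of_mem_unipotent hCD hEa hEΩ hne
        have hn : conjBy E (a * e * a⁻¹) = E := by
          have e' : a * e * a⁻¹ = (a * e * a⁻¹ * e⁻¹) * e := by group
          rw [e', ← conjBy_conjBy, conjBy_of_mem he]
          apply conjBy_eq_of_commute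
          intro c hc
          exact hcen _ hwmem c ((le_sup_right : E ≤ A ⊔ E) hc)
        have h2 := eq_one_of_conjBy_eq hpair (conj_mem_conjBy a he) hn
        apply hw1
        rw [h2]
        have : e = 1 := by
          have e' : e = a⁻¹ * (a * e * a⁻¹) * a := by group
          rw [e', h2]
          group
        rw [this]
        group
      -- so `[A, E] ≤ E`
      have hle : ⁅A, E⁆ ≤ E := by
        rw [Subgroup.commutator_le]
        intro a ha e he
        have h2 : a * e * a⁻¹ ∈ E := by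
          have := conj_mem_conjBy a he
          rwa [hnorm a ha] at this
        exact E.mul_mem h2 (E.inv_mem he)
      have hmem := h1.1
      rcases inf_eq_bot_or_eq hS hE'S hEE' hmem with h3 | h3
      · apply hS.ne_bot _ hmem
        rw [eq_bot_iff, ← h3]
        exact le_inf hle le_rfl
      · apply hS.ne_bot _ hmem
        apply commutator_eq_bot_of_commute
        intro a ha e he
        have he' : e ∈ ⁅A, E⁆ := by rw [← h3]; exact he
        exact (h1.2.1 e he' a ((le_sup_left : A ≤ A ⊔ E) ha)).symm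
  -- `A` is central in `⟨C, D⟩`
  obtain ⟨a, ha, ha1⟩ := exists_ne_one_left hAF
  apply ha1
  apply eq_one_of_conjBy_eq hAF ha
  apply conjBy_eq_of_commute
  have hle : C ⊔ D ≤ Subgroup.centralizer ({a} : Set G) := by
    apply sup_le
    · intro e he
      rw [Subgroup.mem_centralizer_iff]
      rintro _ rfl
      exact key C (left_mem_unipotent hCD) hC le_sup_left _ ha e he
    · intro e he
      rw [Subgroup.mem_centralizer_iff]
      rintro _ rfl
      exact key D (right_mem_unipotent hCD) hD le_sup_right _ ha e he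
  intro c hc
  have := Subgroup.mem_centralizer_iff.1 (hle (hFX hc)) a rfl
  exact this

/-- **S5024** -/
theorem sup_eq_of_le {S : Set (Subgroup G)} (hS : IsRootSubgroupSet S)
    {A B C D : Subgroup G} (hA : A ∈ S) (hC : C ∈ S) (hBS : B ∈ S) (hDS : D ∈ S)
    (hAB : IsRankOnePair A B) (hCD : IsRankOnePair C D) (hle : A ⊔ B ≤ C ⊔ D) :
    A ⊔ B = C ⊔ D ∧ C ∈ unipotentSubgroups A B ∧ D ∈ unipotentSubgroups A B := by
  have h1 : A ∈ unipotentSubgroups C D :=
    mem_unipotent_of_le hS hA hC hDS hAB hCD (le_sup_left.trans hle) (le_sup_right.trans hle)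
  have h2 : B ∈ unipotentSubgroups C D :=
    mem_unipotent_of_le hS hBS hC hDS (RankOnePair_symm hAB) hCD (le_sup_right.trans hle) (le_sup_left.trans hle)
  obtain ⟨_, h3, h4⟩ := rankOne_of_mem_unipotent hCD h1 h2 hAB.ne
  refine ⟨h3, ?_, ?_⟩
  · rw [h4]; exact left_mem_unipotent hCD
  · rw [h4]; exact right_mem_unipotent hCD

end CfsgLib.RootSet
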