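import Cfsg.Agent.Lib.RootSub.RankOne

/-!
# `SL₂(k)` as a rank one group
-/

set_option autoImplicit false

open Cfsg CfsgLib.RankOne
open scoped MatrixGroups

namespace CfsgLib.RankOne.SL2

variable {k : Type*} [Field k]

/-- upper unitriangular -/
def up (t : k) : Matrix.SpecialLinearGroup (Fin 2) k :=
  ⟨!![1, t; 0, 1], by simp [Matrix.det_fin_two]⟩

/-- lower unitriangular -/
def lo (t : k) : Matrix.SpecialLinearGroup (Fin 2) k :=
  ⟨!![1, 0; t, 1], by simp [Matrix.det_fin_two]⟩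

@[simp] theorem up_coe (t : k) : ((up t : Matrix.SpecialLinearGroup (Fin 2) k) : Matrix (Fin 2) (Fin 2) k) = !![1, t; 0, 1] := rfl
@[simp] theorem lo_coe (t : k) : ((lo t : Matrix.SpecialLinearGroup (Fin 2) k) : Matrix (Fin 2) (Fin 2) k) = !![1, 0; t, 1] := rfl

theorem ext_sl {g h : Matrix.SpecialLinearGroup (Fin 2) k}
    (h00 : (g : Matrix (Fin 2) (Fin 2) k) 0 0 = (h : Matrix (Fin 2) (Fin 2) k) 0 0)
    (h01 : (g : Matrix (Fin 2) (Fin 2) k) 0 1 = (h : Matrix (Fin 2) (Fin 2) k) 0 1)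
    (h10 : (g : Matrix (Fin 2) (Fin 2) k) 1 0 = (h : Matrix (Fin 2) (Fin 2) k) 1 0)
    (h11 : (g : Matrix (Fin 2) (Fin 2) k) 1 1 = (h : Matrix (Fin 2) (Fin 2) k) 1 1) : g = h := by
  apply Subtype.ext
  ext i j
  fin_cases i <;> fin_cases j <;> assumption

theorem up_mul_up (s t : k) : up s * up t = up (s + t) := by
  apply ext_sl <;> simp [Matrix.SpecialLinearGroup.coe_mul, Matrix.mul_apply, Fin.sum_univ_two, add_comm]

theorem lo_mul_lo (s t : k) : lo s * lo t = lo (s + t) := by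
  apply ext_sl <;> simp [Matrix.SpecialLinearGroup.coe_mul, Matrix.mul_apply, Fin.sum_univ_two, add_comm]

theorem up_zero : up (0 : k) = 1 := by
  apply ext_sl <;> simp

theorem lo_zero : lo (0 : k) = 1 := by
  apply ext_sl <;> simp

theorem up_inv (t : k) : (up t)⁻¹ = up (-t) := by
  apply inv_eq_of_mul_eq_one_right
  rw [up_mul_up, add_neg_cancel, up_zero]

theorem lo_inv (t : k) : (lo t)⁻¹ = lo (-t) := by
  apply inv_eq_of_mul_eq_one_right
  rw [lo_mul_lo, add_neg_cancel, lo_zero]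

theorem up_injective : Function.Injective (up : k → _) := by
  intro s t h
  have := congrArg (fun g : Matrix.SpecialLinearGroup (Fin 2) k => (g : Matrix (Fin 2) (Fin 2) k) 0 1) h
  simpa using this

theorem lo_injective : Function.Injective (lo : k → _) := by
  intro s t h
  have := congrArg (fun g : Matrix.SpecialLinearGroup (Fin 2) k => (g : Matrix (Fin 2) (Fin 2) k) 1 0) h
  simpa using this

theorem up_ne_one {t : k} (ht : t ≠ 0) : up t ≠ 1 := by
  intro h
  rw [← up_zero] at h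
  exact ht (up_injective h)

theorem lo_ne_one {t : k} (ht : t ≠ 0) : lo t ≠ 1 := by
  intro h
  rw [← lo_zero] at h
  exact ht (lo_injective h)

/-- the upper unitriangular group as a subgroup -/
def upS (k : Type*) [Field k] : Subgroup (Matrix.SpecialLinearGroup (Fin 2) k) where
  carrier := {g | ∃ t : k, g = up t}
  mul_mem' := by
    rintro _ _ ⟨s, rfl⟩ ⟨t, rfl⟩
    exact ⟨s + t, up_mul_up s t⟩
  one_mem' := ⟨0, up_zero.symm⟩
  inv_mem' := by
    rintro _ ⟨s, rfl⟩
    exact ⟨-s, up_inv s⟩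

/-- the lower unitriangular group as a subgroup -/
def loS (k : Type*) [Field k] : Subgroup (Matrix.SpecialLinearGroup (Fin 2) k) where
  carrier := {g | ∃ t : k, g = lo t}
  mul_mem' := by
    rintro _ _ ⟨s, rfl⟩ ⟨t, rfl⟩
    exact ⟨s + t, lo_mul_lo s t⟩
  one_mem' := ⟨0, lo_zero.symm⟩
  inv_mem' := by
    rintro _ ⟨s, rfl⟩
    exact ⟨-s, lo_inv s⟩

theorem upper_eq : upperUnipotentSL2 k = upS k := by
  have : {g : Matrix.SpecialLinearGroup (Fin 2) k | (g : Matrix (Fin 2) (Fin 2) k) 1 0 = 0 ∧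
      (g : Matrix (Fin 2) (Fin 2) k) 0 0 = 1 ∧ (g : Matrix (Fin 2) (Fin 2) k) 1 1 = 1} = (upS k : Set _) := by
    ext g
    constructor
    · rintro ⟨h1, h2, h3⟩
      refine ⟨(g : Matrix (Fin 2) (Fin 2) k) 0 1, ?_⟩
      apply ext_sl <;> simp [h1, h2, h3]
    · rintro ⟨t, rfl⟩
      simp
  rw [upperUnipotentSL2, this, Subgroup.closure_eq]

theorem lower_eq : lowerUnipotentSL2 k = loS k := by
  have : {g : Matrix.SpecialLinearGroup (Fin 2) k | (g : Matrix (Fin 2) (Fin 2) k) 0 1 = 0 ∧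
      (g : Matrix (Fin 2) (Fin 2) k) 0 0 = 1 ∧ (g : Matrix (Fin 2) (Fin 2) k) 1 1 = 1} = (loS k : Set _) := by
    ext g
    constructor
    · rintro ⟨h1, h2, h3⟩
      refine ⟨(g : Matrix (Fin 2) (Fin 2) k) 1 0, ?_⟩
      apply ext_sl <;> simp [h1, h2, h3]
    · rintro ⟨t, rfl⟩
      simp
  rw [lowerUnipotentSL2, this, Subgroup.closure_eq]

theorem mem_upS {g : Matrix.SpecialLinearGroup (Fin 2) k} : g ∈ upS k ↔ ∃ t : k, g = up t := Iff.rfl
theorem mem_loS {g : Matrix.SpecialLinearGroup (Fin 2) k} : g ∈ loS k ↔ ∃ t : k, g = lo t := Iff.rfl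

/-- The conjugation relation: `(up t⁻¹ * lo (-t)) * up u = lo (-t² u) * (up t⁻¹ * lo (-t))`. -/
theorem key_conj {t : k} (ht : t ≠ 0) (u : k) :
    (up t⁻¹ * (lo t)⁻¹) * up u = lo (-(t ^ 2 * u)) * (up t⁻¹ * (lo t)⁻¹) := by
  rw [lo_inv]
  apply ext_sl <;> simp [Matrix.SpecialLinearGroup.coe_mul, Matrix.mul_apply, Fin.sum_univ_two] <;>
    (try field_simp) <;> (try ring) <;> (try simp)

theorem key_conjBy {t : k} (ht : t ≠ 0) :
    conjBy (loS k) (up t⁻¹)⁻¹ = conjBy (upS k) (lo t)⁻¹ := by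
  have hg : conjBy (upS k) (up t⁻¹ * (lo t)⁻¹) = loS k := by
    ext x
    rw [mem_conjBy]
    constructor
    · rintro ⟨u, hu⟩
      have h2 := key_conj ht u
      set g := up t⁻¹ * (lo t)⁻¹ with hgdef
      have h1 : x = g * up u * g⁻¹ := by
        rw [← hu]; group
      rw [h1, h2, mul_inv_cancel_right]
      exact ⟨_, rfl⟩
    · rintro ⟨s, rfl⟩
      have h1 := key_conj ht (-(s / t ^ 2))
      set g := up t⁻¹ * (lo t)⁻¹ with hgdef
      refine ⟨-(s / t ^ 2), ?_⟩
      have e : -(t ^ 2 * -(s / t ^ 2)) = s := by field_simp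
      rw [e] at h1
      rw [mul_assoc, ← h1]
      group
  rw [← hg]
  simp

theorem isMulCommutative_upS : IsMulCommutative (upS k) := by
  apply IsMulCommutative.of_comm
  rintro ⟨_, s, rfl⟩ ⟨_, t, rfl⟩
  apply Subtype.ext
  show up s * up t = up t * up s
  rw [up_mul_up, up_mul_up, add_comm]

theorem isMulCommutative_loS : IsMulCommutative (loS k) := by
  apply IsMulCommutative.of_comm
  rintro ⟨_, s, rfl⟩ ⟨_, t, rfl⟩
  apply Subtype.ext
  show lo s * lo t = lo t * lo s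
  rw [lo_mul_lo, lo_mul_lo, add_comm]

theorem loS_ne_upS : loS k ≠ upS k := by
  intro e
  have h1 : lo (1 : k) ∈ upS k := by rw [← e]; exact ⟨1, rfl⟩
  obtain ⟨t, ht⟩ := h1
  have := congrArg (fun g : Matrix.SpecialLinearGroup (Fin 2) k => (g : Matrix (Fin 2) (Fin 2) k) 1 0) ht
  simp at this

theorem pair : IsRankOnePair (loS k) (upS k) := by
  refine ⟨loS_ne_upS, ?_, ?_, ?_, ?_⟩
  · have := isMulCommutative_loS (k := k)
    exact CfsgLib.RankOne.isNilpotent_of_comm this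
  · have := isMulCommutative_upS (k := k)
    exact CfsgLib.RankOne.isNilpotent_of_comm this
  · rintro _ ⟨t, rfl⟩ h1
    have ht : t ≠ 0 := by
      rintro rfl
      exact h1 lo_zero
    exact ⟨up t⁻¹, ⟨_, rfl⟩, up_ne_one (inv_ne_zero ht), key_conjBy ht⟩
  · rintro _ ⟨s, rfl⟩ h1
    have hs : s ≠ 0 := by
      rintro rfl
      exact h1 up_zero
    refine ⟨lo s⁻¹, ⟨_, rfl⟩, lo_ne_one (inv_ne_zero hs), ?_⟩
    have := key_conjBy (inv_ne_zero hs)
    rw [inv_inv] at this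
    exact this.symm

theorem sup_eq_top : loS k ⊔ upS k = ⊤ := by
  rw [eq_top_iff]
  have hlo : ∀ t : k, lo t ∈ loS k ⊔ upS k := fun t => (le_sup_left : loS k ≤ _) ⟨t, rfl⟩
  have hup : ∀ t : k, up t ∈ loS k ⊔ upS k := fun t => (le_sup_right : upS k ≤ _) ⟨t, rfl⟩
  -- matrices with non-zero lower left entry
  have key : ∀ g : Matrix.SpecialLinearGroup (Fin 2) k, (g : Matrix (Fin 2) (Fin 2) k) 1 0 ≠ 0 →
      g ∈ loS k ⊔ upS k := by
    intro g hc
    have hdet := g.2
    rw [Matrix.det_fin_two] at hdet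
    set a := (g : Matrix (Fin 2) (Fin 2) k) 0 0 with ha
    set b := (g : Matrix (Fin 2) (Fin 2) k) 0 1 with hb
    set c := (g : Matrix (Fin 2) (Fin 2) k) 1 0 with hc'
    set d := (g : Matrix (Fin 2) (Fin 2) k) 1 1 with hd
    have e : g = up ((a - 1) / c) * lo c * up ((d - 1) / c) := by
      apply ext_sl
      · simp [Matrix.SpecialLinearGroup.coe_mul, Matrix.mul_apply, Fin.sum_univ_two]
        field_simp
        ring
      · simp [Matrix.SpecialLinearGroup.coe_mul, Matrix.mul_apply, Fin.sum_univ_two]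
        field_simp
        linear_combination -hdet
      · simp [Matrix.SpecialLinearGroup.coe_mul, Matrix.mul_apply, Fin.sum_univ_two]
        exact hc'.symm
      · simp [Matrix.SpecialLinearGroup.coe_mul, Matrix.mul_apply, Fin.sum_univ_two]
        field_simp
        ring
    rw [e]
    exact Subgroup.mul_mem _ (Subgroup.mul_mem _ (hup _) (hlo _)) (hup _)
  intro g _
  by_cases hc : (g : Matrix (Fin 2) (Fin 2) k) 1 0 = 0
  · -- multiply by `lo 1`
    have hdet := g.2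
    rw [Matrix.det_fin_two, hc] at hdet
    have ha : (g : Matrix (Fin 2) (Fin 2) k) 0 0 ≠ 0 := by
      intro h0
      rw [h0] at hdet
      simp at hdet
    have h1 : ((lo 1 * g : Matrix.SpecialLinearGroup (Fin 2) k) : Matrix (Fin 2) (Fin 2) k) 1 0 ≠ 0 := by
      simp [Matrix.SpecialLinearGroup.coe_mul, Matrix.mul_apply, Fin.sum_univ_two, hc, ha]
    have h2 := key _ h1
    have e : g = lo (-1) * (lo 1 * g) := by
      rw [← mul_assoc, lo_mul_lo]
      simp [lo_zero]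
    rw [e]
    exact Subgroup.mul_mem _ (hlo _) h2
  · exact key g hc

theorem special {a b : Matrix.SpecialLinearGroup (Fin 2) k} (ha : a ∈ loS k) (ha1 : a ≠ 1)
    (hb : b ∈ upS k) (hb1 : b ≠ 1) (h : conjBy (loS k) b⁻¹ = conjBy (upS k) a⁻¹) :
    b⁻¹ * a * b = a⁻¹ * b⁻¹ * a := by
  obtain ⟨t, rfl⟩ := ha
  obtain ⟨s, rfl⟩ := hb
  have ht : t ≠ 0 := by
    rintro rfl
    exact ha1 lo_zero
  have hs : s ≠ 0 := by
    rintro rfl
    exact hb1 up_zero
  have h1 := key_conjBy ht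
  rw [← h] at h1
  have h2 := CfsgLib.RankOne.conjBy_right_injOn (RankOnePair_symm (pair (k := k)))
    (a := (up t⁻¹)⁻¹) (a' := (up s)⁻¹) (Subgroup.inv_mem _ ⟨_, rfl⟩) (Subgroup.inv_mem _ ⟨_, rfl⟩) h1
  have h3 : up t⁻¹ = up s := inv_injective h2
  have h4 : t⁻¹ = s := up_injective h3
  subst h4
  rw [up_inv, lo_inv]
  apply ext_sl <;> simp [Matrix.SpecialLinearGroup.coe_mul, Matrix.mul_apply, Fin.sum_univ_two] <;>
    (try field_simp) <;> (try ring) <;> (try simp)

end CfsgLib.RankOne.SL2
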